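import Mathlib

/-!
# The ring of endomorphisms of a four-group, concretely
-/

set_option autoImplicit false
set_option linter.unusedSectionVars false

namespace Cfsg.Agent.Lib.MacW.Finite

/-- Vectors. -/
abbrev F2 := ZMod 2 × ZMod 2

/-- Matrices, as pairs of columns. -/
abbrev M0 := F2 × F2

/-- Action. -/
def app (A : M0) (x : F2) : F2 := (x.1 * A.1.1 + x.2 * A.2.1, x.1 * A.1.2 + x.2 * A.2.2)

/-- Product. -/
def cmpM (A B : M0) : M0 := (app A B.1, app A B.2)

/-- `A + A²`. -/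
def qq (A : M0) : M0 := A + cmpM A A

/-- `det (1 + A)`. -/
def det1 (A : M0) : ZMod 2 := (1 + A.1.1) * (1 + A.2.2) + A.1.2 * A.2.1

/-- `E₂₁`: `e₁ ↦ e₂`, `e₂ ↦ 0`. -/
def E21 : M0 := ((0, 1), (0, 0))

/-- The transvection `1 + E₂₁`. -/
def tauM : M0 := ((1, 1), (0, 1))

/-- `A + τ A τ`. -/
def adM (A : M0) : M0 := A + cmpM (cmpM tauM A) tauM

/-- The first test. -/
def PB (c : M0) : Bool := decide (c = E21) || decide ((qq c).1.1 ≠ 0) || decide ((qq c).2.1 ≠ 0)

/-- The second test. -/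
def PC (c : M0) : Bool := decide (c ≠ 0) && decide (det1 c ≠ 0)

/-- The third test. -/
def PC2 (c : M0) : Bool := decide (c = E21) || decide (adM c = E21)

set_option maxRecDepth 100000 in
set_option synthInstance.maxHeartbeats 0 in
set_option synthInstance.maxSize 10000 in
lemma fin_B : ∀ a b c : M0, (a ≠ 0 ∧ b ≠ 0 ∧ b ≠ a ∧ c ≠ 0 ∧ c ≠ a ∧ c ≠ b ∧ c ≠ a + b) →
    (PB a = false ∧ PB b = false ∧ PB (a + b) = false ∧ PB c = false ∧ PB (a + c) = false ∧
      PB (b + c) = false ∧ PB (a + b + c) = false) → False := by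
  decide +kernel

set_option maxRecDepth 100000 in
set_option synthInstance.maxHeartbeats 0 in
set_option synthInstance.maxSize 10000 in
lemma fin_C : ∀ a b c : M0, (a ≠ 0 ∧ b ≠ 0 ∧ b ≠ a ∧ c ≠ 0 ∧ c ≠ a ∧ c ≠ b ∧ c ≠ a + b) →
    (PC a = false ∧ PC b = false ∧ PC (a + b) = false ∧ PC c = false ∧ PC (a + c) = false ∧
      PC (b + c) = false ∧ PC (a + b + c) = false) → False := by
  decide +kernel

set_option maxRecDepth 100000 in
set_option synthInstance.maxHeartbeats 0 in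
set_option synthInstance.maxSize 10000 in
lemma fin_C2 : ∀ a b c : M0, (a ≠ 0 ∧ b ≠ 0 ∧ b ≠ a ∧ c ≠ 0 ∧ c ≠ a ∧ c ≠ b ∧ c ≠ a + b) →
    (PC2 a = false ∧ PC2 b = false ∧ PC2 (a + b) = false ∧ PC2 c = false ∧ PC2 (a + c) = false ∧
      PC2 (b + c) = false ∧ PC2 (a + b + c) = false) → False := by
  decide +kernel

lemma app_add (A : M0) (x y : F2) : app A (x + y) = app A x + app A y := by
  revert A x y
  decide

lemma inj_of_det : ∀ A : M0, det1 A ≠ 0 → ∀ x : F2, app A x = x → x = 0 := by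
  decide

lemma inj_of_PC {A : M0} (h : PC A = true) : det1 A ≠ 0 := by
  simp only [PC, Bool.and_eq_true, decide_eq_true_eq] at h
  exact h.2

section coord

variable {Q : Type*} [AddCommGroup Q] (ε : Q ≃+ F2)

/-- The matrix of an endomorphism. -/
def mat (n : Q →+ Q) : M0 := (ε (n (ε.symm (1, 0))), ε (n (ε.symm (0, 1))))

lemma F2_cases : ∀ p : F2, p = (0, 0) ∨ p = (1, 0) ∨ p = (0, 1) ∨ p = (1, 0) + (0, 1) := by
  decide

lemma ε_app (n : Q →+ Q) (q : Q) : ε (n q) = app (mat ε n) (ε q) := by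
  have hq : q = ε.symm (ε q) := (ε.symm_apply_apply q).symm
  rcases F2_cases (ε q) with h | h | h | h
  · rw [hq, h]
    have e0 : ((0, 0) : F2) = 0 := rfl
    rw [ε.apply_symm_apply, e0, map_zero, map_zero, map_zero]
    simp [app]
    rfl
  · rw [hq, h, ε.apply_symm_apply]
    simp [app, mat]
  · rw [hq, h, ε.apply_symm_apply]
    simp [app, mat]
  · rw [hq, h, ε.apply_symm_apply, map_add, map_add, map_add]
    simp [app, mat]
    rfl

lemma mat_add (n m : Q →+ Q) : mat ε (n + m) = mat ε n + mat ε m := by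
  simp [mat]

lemma mat_comp (n m : Q →+ Q) : mat ε (n.comp m) = cmpM (mat ε n) (mat ε m) := by
  simp only [mat, cmpM, AddMonoidHom.comp_apply]
  rw [ε_app ε n, ε_app ε n]
  rfl

lemma mat_zero : mat ε (0 : Q →+ Q) = 0 := by
  simp [mat]

lemma mat_inj : Function.Injective (mat ε) := by
  intro n m h
  apply AddMonoidHom.ext
  intro q
  apply ε.injective
  rw [ε_app, ε_app, h]

lemma mat_surj : Function.Surjective (mat ε) := by
  intro A
  let h : F2 →+ F2 := AddMonoidHom.mk' (app A) (app_add A)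
  refine ⟨ε.symm.toAddMonoidHom.comp (h.comp ε.toAddMonoidHom), ?_⟩
  have e1 : app A (1, 0) = A.1 := by
    revert A
    decide
  have e2 : app A (0, 1) = A.2 := by
    revert A
    decide
  simp only [mat, AddMonoidHom.comp_apply]
  apply Prod.ext
  · simp [h, e1]
  · simp [h, e2]

lemma finite_End (ε : Q ≃+ F2) : Finite (Q →+ Q) := Finite.of_injective (mat ε) (mat_inj ε)

lemma card_End (ε : Q ≃+ F2) : Nat.card (Q →+ Q) = 16 := by
  have h : Nat.card (Q →+ Q) = Nat.card M0 :=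
    Nat.card_congr (Equiv.ofBijective (mat ε) ⟨mat_inj ε, mat_surj ε⟩)
  rw [h]
  simp [Nat.card_eq_fintype_card, ZMod.card]

end coord

section triple

variable {E : Type*} [AddCommGroup E] [Finite E]

lemma exists_not_mem (A : AddSubgroup E) (s : Finset E) (h : s.card < Nat.card A) : ∃ x ∈ A, x ∉ s := by
  classical
  by_contra hc
  push Not at hc
  have h1 : Nat.card A ≤ s.card := by
    have hinj : Function.Injective (fun x : A => (⟨(x : E), hc x x.2⟩ : s)) := by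
      intro x y hxy
      exact Subtype.ext (congrArg (fun z : s => (z : E)) hxy)
    have := Nat.card_le_card_of_injective _ hinj
    simpa using this
  omega

lemma exists_triple (A : AddSubgroup E) (h : 4 < Nat.card A) :
    ∃ a ∈ A, ∃ b ∈ A, ∃ c ∈ A, a ≠ 0 ∧ b ≠ 0 ∧ b ≠ a ∧ c ≠ 0 ∧ c ≠ a ∧ c ≠ b ∧ c ≠ a + b := by
  classical
  obtain ⟨a, ha, ha0⟩ := exists_not_mem A {0} (by simp; omega)
  obtain ⟨b, hb, hb0⟩ := exists_not_mem A {0, a} (by
    refine lt_of_le_of_lt (Finset.card_le_two) (by omega))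
  obtain ⟨c, hc, hc0⟩ := exists_not_mem A {0, a, b, a + b} (by
    refine lt_of_le_of_lt (Finset.card_le_four) h)
  simp only [Finset.mem_insert, Finset.mem_singleton, not_or] at ha0 hb0 hc0
  exact ⟨a, ha, b, hb, c, hc, ha0, hb0.1, hb0.2, hc0.1, hc0.2.1, hc0.2.2.1, hc0.2.2.2⟩

lemma eq_top_of_lt (A : AddSubgroup E) (hE : Nat.card E = 16) (h : 8 < Nat.card A) : A = ⊤ := by
  have h1 : Nat.card A ∣ 16 := hE ▸ AddSubgroup.card_addSubgroup_dvd_card A
  have h2 : Nat.card A ≤ 16 := Nat.le_of_dvd (by norm_num) h1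
  have h3 : Nat.card A = 16 := by
    interval_cases hc : Nat.card A <;> first | rfl | omega
  exact AddSubgroup.eq_top_of_card_eq A (h3.trans hE.symm)

end triple

section transport

variable {Q : Type*} [AddCommGroup Q] (ε : Q ≃+ F2)

/-- Transport of a finite check from `M0` to a subgroup of the endomorphism group. -/
lemma exists_of_check {P : M0 → Bool} (hP : ∀ a b c : M0, (a ≠ 0 ∧ b ≠ 0 ∧ b ≠ a ∧ c ≠ 0 ∧ c ≠ a ∧ c ≠ b ∧ c ≠ a + b) →
    (P a = false ∧ P b = false ∧ P (a + b) = false ∧ P c = false ∧ P (a + c) = false ∧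
      P (b + c) = false ∧ P (a + b + c) = false) → False) (A : AddSubgroup (Q →+ Q)) (h : 4 < Nat.card A) :
    ∃ n ∈ A, P (mat ε n) = true := by
  classical
  haveI := finite_End ε
  obtain ⟨a, ha, b, hb, c, hc, h1, h2, h3, h4, h5, h6, h7⟩ := exists_triple A h
  by_contra hno
  push Not at hno
  have hF : ∀ n ∈ A, P (mat ε n) = false := fun n hn => by simpa using hno n hn
  have hinj := mat_inj ε
  have hz := mat_zero ε
  refine hP (mat ε a) (mat ε b) (mat ε c) ⟨?_, ?_, ?_, ?_, ?_, ?_, ?_⟩ ⟨hF _ ha, hF _ hb, ?_, hF _ hc, ?_, ?_, ?_⟩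
  · rw [← hz]; exact fun e => h1 (hinj e)
  · rw [← hz]; exact fun e => h2 (hinj e)
  · exact fun e => h3 (hinj e)
  · rw [← hz]; exact fun e => h4 (hinj e)
  · exact fun e => h5 (hinj e)
  · exact fun e => h6 (hinj e)
  · rw [← mat_add]; exact fun e => h7 (hinj e)
  · rw [← mat_add]; exact hF _ (A.add_mem ha hb)
  · rw [← mat_add]; exact hF _ (A.add_mem ha hc)
  · rw [← mat_add]; exact hF _ (A.add_mem hb hc)
  · rw [← mat_add, ← mat_add]; exact hF _ (A.add_mem (A.add_mem ha hb) hc)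

end transport

section exists_coord

variable {Q : Type*} [AddCommGroup Q] [Finite Q]

/-- Scalar action of `ZMod 2`. -/
def gg (e : Q) (x : ZMod 2) : Q := if x = 0 then 0 else e

lemma ZMod2_cases : ∀ x : ZMod 2, x = 0 ∨ x = 1 := by decide

lemma gg_add {e : Q} (h2 : e + e = 0) (x y : ZMod 2) : gg e (x + y) = gg e x + gg e y := by
  rcases ZMod2_cases x with rfl | rfl <;> rcases ZMod2_cases y with rfl | rfl
  · simp [gg]
  · simp [gg]
  · simp [gg]
  · have e1 : (1 + 1 : ZMod 2) = 0 := by decide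
    simp [gg, e1, h2]

/-- A basis gives coordinates. -/
lemma exists_coord (hQ : Nat.card Q = 4) (h2 : ∀ q : Q, q + q = 0) {e₁ e₂ : Q} (h₁ : e₁ ≠ 0) (h₂ : e₂ ≠ 0) (h₁₂ : e₁ ≠ e₂)
    (hcov : ∀ r : Q, r = 0 ∨ r = e₁ ∨ r = e₂ ∨ r = e₁ + e₂) :
    ∃ ε : Q ≃+ F2, ε e₁ = (1, 0) ∧ ε e₂ = (0, 1) := by
  let ψ : F2 →+ Q := AddMonoidHom.mk' (fun p => gg e₁ p.1 + gg e₂ p.2) (by
    intro p p'
    simp only [Prod.fst_add, Prod.snd_add]
    rw [gg_add (h2 e₁), gg_add (h2 e₂)]
    abel)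
  have hsurj : Function.Surjective ψ := by
    intro r
    rcases hcov r with rfl | rfl | rfl | rfl
    · exact ⟨(0, 0), by simp [ψ, gg]⟩
    · exact ⟨(1, 0), by simp [ψ, gg]⟩
    · exact ⟨(0, 1), by simp [ψ, gg]⟩
    · exact ⟨(1, 1), by simp [ψ, gg]⟩
  have hcard : Nat.card F2 = Nat.card Q := by
    rw [hQ]
    simp [Nat.card_eq_fintype_card, ZMod.card]
  have hbij : Function.Bijective ψ := (Nat.bijective_iff_surjective_and_card ψ).2 ⟨hsurj, hcard⟩
  let ε₀ : F2 ≃+ Q := AddEquiv.ofBijective ψ hbij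
  refine ⟨ε₀.symm, ?_, ?_⟩
  · rw [AddEquiv.symm_apply_eq]
    change e₁ = ψ (1, 0)
    simp [ψ, gg]
  · rw [AddEquiv.symm_apply_eq]
    change e₂ = ψ (0, 1)
    simp [ψ, gg]

end exists_coord

end Cfsg.Agent.Lib.MacW.Finite
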