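import Cfsg.Agent.Lib.MacW.Level2
import Cfsg.Agent.Lib.MacW.Finite

/-!
# Putting the levels together
-/

set_option autoImplicit false
set_option linter.unusedSectionVars false

namespace Cfsg.Agent.Lib.MacW.Assembly

open Cfsg.Agent.Lib.TwoFusion.SecRank Cfsg.Agent.Lib.SelfCentE8.Setup Cfsg.Agent.Lib.SelfCentE8.Count
open Cfsg.Agent.Lib.SelfCentE8.TCore Cfsg.Agent.Lib.SelfCentE8.TCount Cfsg.Agent.Lib.SelfCentE8.Gamma
open Cfsg.Agent.Lib.SelfCentE8.N1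
open Cfsg.Agent.Lib.MacW.Basic Cfsg.Agent.Lib.MacW.Chain Cfsg.Agent.Lib.MacW.Sigma Cfsg.Agent.Lib.MacW.Core
open Cfsg.Agent.Lib.MacW.Level2 Cfsg.Agent.Lib.MacW.Finite
open Mod

variable {S V : Type*} [Group S] [AddCommGroup V] {D : Mod S V} [Finite V] (C : Ctx D)

include C

lemma exists_basis : ∃ e₁ e₂ : Q V, e₁ ≠ 0 ∧ e₂ ≠ 0 ∧ e₁ ≠ e₂ := by
  classical
  have hc : Nat.card (⊤ : AddSubgroup (Q V)) = 4 := by
    rw [AddSubgroup.card_top]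
    exact card_Q C.hW
  obtain ⟨a, -, ha⟩ := exists_not_mem (⊤ : AddSubgroup (Q V)) {0} (by rw [hc, Finset.card_singleton]; norm_num)
  obtain ⟨b, -, hb⟩ := exists_not_mem (⊤ : AddSubgroup (Q V)) {0, a} (by
    refine lt_of_le_of_lt Finset.card_le_two (by omega))
  simp only [Finset.mem_insert, Finset.mem_singleton, not_or] at ha hb
  exact ⟨a, b, ha, hb.1, fun h => hb.2 h.symm⟩

/-- Coordinates exist for any basis. -/
lemma exists_ε_of {e₁ e₂ : Q V} (h₁ : e₁ ≠ 0) (h₂ : e₂ ≠ 0) (h₁₂ : e₁ ≠ e₂) :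
    ∃ ε : Q V ≃+ F2, ε e₁ = (1, 0) ∧ ε e₂ = (0, 1) :=
  exists_coord (card_Q C.hW) Q_two h₁ h₂ h₁₂ (fun r => klein_cover (card_Q C.hW) Q_two h₁ h₂ h₁₂ r)

lemma exists_ε : Nonempty (Q V ≃+ F2) := by
  obtain ⟨e₁, e₂, h₁, h₂, h₁₂⟩ := exists_basis C
  obtain ⟨ε, -⟩ := exists_ε_of C h₁ h₂ h₁₂
  exact ⟨ε⟩

lemma finEnd : Finite (Q V →+ Q V) := by
  obtain ⟨ε⟩ := exists_ε C
  exact finite_End ε

/-- The image of `H ∩ S₁` in the endomorphisms of `Q`. -/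
def Abar (C : Ctx D) (H : Subgroup S) : AddSubgroup (Q V →+ Q V) where
  carrier := {n | ∃ x ∈ H ⊓ S1 D, NN D x = n}
  add_mem' := by
    rintro _ _ ⟨x, hx, rfl⟩ ⟨y, hy, rfl⟩
    exact ⟨x * y, (H ⊓ S1 D).mul_mem hx hy, NN_mul C.hV2 hx.2 hy.2⟩
  zero_mem' := ⟨1, (H ⊓ S1 D).one_mem, NN_one C.hV2⟩
  neg_mem' := by
    rintro _ ⟨x, hx, rfl⟩
    exact ⟨x, hx, (neg_eq_of_add_eq_zero_left (End_two _)).symm⟩

lemma card_Abar_le (H : Subgroup S) : Nat.card (Abar C H) ≤ 16 := by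
  obtain ⟨ε⟩ := exists_ε C
  haveI := finite_End ε
  rw [← card_End ε]
  exact Nat.card_le_card_of_injective Subtype.val Subtype.val_injective

variable {H K : Subgroup S} [Finite S]

lemma relIndex_le_Abar : (H ⊓ P2 D).relIndex (H ⊓ S1 D) ≤ Nat.card (Abar C H) := by
  classical
  haveI := finEnd C
  apply relIndex_le_of_fun _ _ (X := Abar C H) (fun x => if hx : x ∈ H ⊓ S1 D then ⟨NN D x, x, hx, rfl⟩ else 0)
  intro x hx y hy hf
  simp only [hx, hy, dif_pos] at hf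
  have h1 : NN D x = NN D y := congrArg Subtype.val hf
  exact ⟨H.mul_mem (H.inv_mem hx.1) hy.1, (NN_eq_iff C.hV2 hx.2 hy.2).1 h1⟩

omit C [Finite V] in
lemma H2_le_H1 : H ⊓ P2 D ≤ H ⊓ S1 D := inf_le_inf_left _ P2_le_S1

omit C [Finite V] in
lemma inf_H2 (hKH : K ≤ H) : K ⊓ (H ⊓ P2 D) = K ⊓ P2 D := by
  ext x
  exact ⟨fun h => ⟨h.1, h.2.2⟩, fun h => ⟨h.1, hKH h.1, h.2⟩⟩

omit C in
/-- The counting identity for `H ∩ P₂`. -/
lemma card_H2 (hKH : K ≤ H) : Nat.card (H ⊓ P2 D : Subgroup S) = K.relIndex (H ⊓ P2 D) * Nat.card (K ⊓ P2 D : Subgroup S) := by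
  rw [card_eq_relIndex_mul_inf K (H ⊓ P2 D), inf_H2 hKH]

/-- What each case must provide. -/
structure Sav (C : Ctx D) : Prop where
  s2 : ∀ {H K : Subgroup S}, K ≤ H → (∀ x ∈ H, ∀ y ∈ H, x * y * x⁻¹ * y⁻¹ ∈ K) → (∀ x ∈ H, x * x ∈ K) →
    4 < Nat.card (Abar C H) → K.relIndex (H ⊓ P2 D) ≤ 2
  s1 : ∀ {H K : Subgroup S}, K ≤ H → (∀ x ∈ H, ∀ y ∈ H, x * y * x⁻¹ * y⁻¹ ∈ K) → (∀ x ∈ H, x * x ∈ K) →
    8 < Nat.card (Abar C H) → K.relIndex (H ⊓ P2 D) ≤ 1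
  sη : ∀ {H K : Subgroup S}, K ≤ H → (∀ x ∈ H, ∀ y ∈ H, x * y * x⁻¹ * y⁻¹ ∈ K) → (∀ x ∈ H, x * x ∈ K) →
    ∀ τ, τ ∉ S1 D → ∀ x ∈ H ⊓ S1 D, (∀ q, NN D x q = ρQ D τ q + q) → K.relIndex (H ⊓ P2 D) ≤ 2

variable {C}

/-- The bound on `S₁`. -/
lemma card_H1_le (Sv : Sav C) (hKH : K ≤ H) (hc : ∀ x ∈ H, ∀ y ∈ H, x * y * x⁻¹ * y⁻¹ ∈ K) (hs : ∀ x ∈ H, x * x ∈ K) :
    Nat.card (H ⊓ S1 D : Subgroup S) ≤ 16 * Nat.card (K ⊓ S1 D : Subgroup S) := by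
  have h1 := card_eq_relIndex_mul (H2_le_H1 (H := H) (D := D))
  have h2 := card_H2 (D := D) hKH
  have h3 : Nat.card (K ⊓ P2 D : Subgroup S) ≤ Nat.card (K ⊓ S1 D : Subgroup S) :=
    Subgroup.card_le_of_le (inf_le_inf_left _ P2_le_S1)
  have h4 := relIndex_le_Abar C (H := H)
  have h5 := card_Abar_le C H
  have h6 := s_le4 C hKH hs
  have key : (H ⊓ P2 D).relIndex (H ⊓ S1 D) * K.relIndex (H ⊓ P2 D) ≤ 16 := by
    by_cases h8 : 8 < Nat.card (Abar C H)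
    · have := Sv.s1 hKH hc hs h8
      calc _ ≤ 16 * 1 := Nat.mul_le_mul (h4.trans h5) this
        _ = 16 := rfl
    · by_cases h44 : 4 < Nat.card (Abar C H)
      · have := Sv.s2 hKH hc hs h44
        calc _ ≤ 8 * 2 := Nat.mul_le_mul (h4.trans (by omega)) this
          _ = 16 := rfl
      · calc _ ≤ 4 * 4 := Nat.mul_le_mul (h4.trans (by omega)) h6
          _ = 16 := rfl
  rw [h1, h2, ← mul_assoc]
  exact Nat.mul_le_mul key h3

section tau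
variable (C) {τ : S}

/-- The map `ρ̄ τ + 1`. -/
noncomputable def ηh (D : Mod S V) (τ : S) : Q V →+ Q V := ρQ D τ + AddMonoidHom.id (Q V)

omit C in
lemma ηh_apply (q : Q V) : ηh D τ q = ρQ D τ q + q := rfl

lemma ρQ_sq (hτ1 : τ ∉ S1 D) (q : Q V) : ρQ D τ (ρQ D τ q) = q := by
  have hi := index_S1_le (D := D) C.hS C.hW
  have h2 : (S1 D).index = 2 := by
    have h0 : (S1 D).index ≠ 0 := Subgroup.index_ne_zero_of_finite
    have h1 : (S1 D).index ≠ 1 := by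
      intro h
      rw [Subgroup.index_eq_one] at h
      exact hτ1 (h ▸ Subgroup.mem_top τ)
    omega
  have h3 : τ * τ ∈ S1 D := Subgroup.mul_self_mem_of_index_two h2 τ
  rw [← ρQ_mul]
  exact mem_S1_iff_Q.1 h3 q

lemma ηh_sq (hτ1 : τ ∉ S1 D) (q : Q V) : ηh D τ (ηh D τ q) = 0 := by
  rw [ηh_apply, ηh_apply, map_add, ρQ_sq C hτ1]
  have e : q + ρQ D τ q + (ρQ D τ q + q) = (q + q) + (ρQ D τ q + ρQ D τ q) := by abel
  rw [e, Q_two, Q_two, add_zero]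

lemma exists_ηh_ne (hτ1 : τ ∉ S1 D) : ∃ e₁, ηh D τ e₁ ≠ 0 := by
  by_contra h
  push Not at h
  apply hτ1
  refine mem_S1_iff_Q.2 (fun q => ?_)
  exact Q_eq_of_add C.hV2 (h q)

/-- The commutant of `η` in `H ∩ S₁`. -/
def C0 (C : Ctx D) (H : Subgroup S) (τ : S) : Subgroup S where
  carrier := {x | x ∈ H ⊓ S1 D ∧ ∀ q, NN D x (ηh D τ q) = ηh D τ (NN D x q)}
  mul_mem' := by
    rintro x y ⟨hx, hx'⟩ ⟨hy, hy'⟩
    refine ⟨(H ⊓ S1 D).mul_mem hx hy, fun q => ?_⟩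
    rw [NN_mul C.hV2 hx.2 hy.2, AddMonoidHom.add_apply, AddMonoidHom.add_apply, hx', hy', map_add]
  one_mem' := by
    refine ⟨(H ⊓ S1 D).one_mem, fun q => ?_⟩
    rw [NN_one C.hV2]
    simp
  inv_mem' := by
    rintro x ⟨hx, hx'⟩
    refine ⟨(H ⊓ S1 D).inv_mem hx, fun q => ?_⟩
    rw [NN_inv C.hV2 hx.2, hx']

omit [Finite S] in
lemma H2_le_C0 : H ⊓ P2 D ≤ C0 C H τ := by
  intro x hx
  have h0 := (NN_eq_zero_iff C.hV2 (P2_le_S1 hx.2)).2 hx.2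
  refine ⟨⟨hx.1, P2_le_S1 hx.2⟩, fun q => ?_⟩
  rw [h0]
  simp

/-- The first count. -/
lemma relIndex_C0_le (hc : ∀ x ∈ H, ∀ y ∈ H, x * y * x⁻¹ * y⁻¹ ∈ K) (hK : K ≤ S1 D) (hτ : τ ∈ H) :
    (C0 C H τ).relIndex (H ⊓ S1 D) ≤ (K ⊓ P2 D).relIndex K := by
  classical
  let X := K ⧸ ((K ⊓ P2 D).subgroupOf K)
  have hX : Nat.card X = (K ⊓ P2 D).relIndex K := rfl
  rw [← hX]
  apply relIndex_le_of_fun _ _ (X := X) (fun x => if hx : x ∈ H ⊓ S1 D then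
    (QuotientGroup.mk ⟨x * τ * x⁻¹ * τ⁻¹, hc x hx.1 τ hτ⟩ : X) else (QuotientGroup.mk 1 : X))
  intro x hx y hy hf
  simp only [hx, hy, dif_pos] at hf
  have h1 := QuotientGroup.eq.1 hf
  rw [Subgroup.mem_subgroupOf] at h1
  have h2 := h1.2
  have hV2 := C.hV2
  have hκ : ∀ z ∈ H ⊓ S1 D, ∀ q, NN D (z * τ * z⁻¹ * τ⁻¹) (ρQ D τ q) = NN D z (ρQ D τ q) + ρQ D τ (NN D z q) := by
    intro z hz q
    have e : z * τ * z⁻¹ * τ⁻¹ = z * (τ * z⁻¹ * τ⁻¹) := by group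
    have hm : τ * z⁻¹ * τ⁻¹ ∈ S1 D :=
      (inferInstance : (S1 D).Normal).conj_mem _ ((S1 D).inv_mem hz.2) τ
    rw [e, NN_mul hV2 hz.2 hm, AddMonoidHom.add_apply, NN_conj hV2 τ ((S1 D).inv_mem hz.2), NN_inv hV2 hz.2]
  have hxκ := hK (hc x hx.1 τ hτ)
  have hyκ := hK (hc y hy.1 τ hτ)
  have h3 := (NN_eq_iff hV2 hxκ hyκ).2 h2
  have hm := (H ⊓ S1 D).mul_mem ((H ⊓ S1 D).inv_mem hx) hy
  have hn : NN D (x⁻¹ * y) = NN D x + NN D y := by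
    rw [NN_mul hV2 ((S1 D).inv_mem hx.2) hy.2, NN_inv hV2 hx.2]
  refine ⟨hm, fun q => ?_⟩
  have h4 : NN D x (ρQ D τ q) + ρQ D τ (NN D x q) = NN D y (ρQ D τ q) + ρQ D τ (NN D y q) := by
    rw [← hκ x hx, ← hκ y hy, h3]
  rw [hn, AddMonoidHom.add_apply, AddMonoidHom.add_apply, ηh_apply, ηh_apply, map_add, map_add, map_add]
  have h5 : NN D x (ρQ D τ q) + NN D y (ρQ D τ q) = ρQ D τ (NN D x q) + ρQ D τ (NN D y q) := by
    apply Q_eq_of_add hV2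
    have e : NN D x (ρQ D τ q) + NN D y (ρQ D τ q) + (ρQ D τ (NN D x q) + ρQ D τ (NN D y q)) =
        (NN D x (ρQ D τ q) + ρQ D τ (NN D x q)) + (NN D y (ρQ D τ q) + ρQ D τ (NN D y q)) := by abel
    rw [e, h4]
    exact Q_two _
  calc NN D x (ρQ D τ q) + NN D x q + (NN D y (ρQ D τ q) + NN D y q)
      = (NN D x (ρQ D τ q) + NN D y (ρQ D τ q)) + (NN D x q + NN D y q) := by abel
    _ = (ρQ D τ (NN D x q) + ρQ D τ (NN D y q)) + (NN D x q + NN D y q) := by rw [h5]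

/-- The image of `C0` under evaluation at `e₁`. -/
def A1 (C : Ctx D) (H : Subgroup S) (τ : S) (e₁ : Q V) : AddSubgroup (Q V) where
  carrier := {q | ∃ x ∈ C0 C H τ, NN D x e₁ = q}
  add_mem' := by
    rintro _ _ ⟨x, hx, rfl⟩ ⟨y, hy, rfl⟩
    refine ⟨x * y, (C0 C H τ).mul_mem hx hy, ?_⟩
    rw [NN_mul C.hV2 hx.1.2 hy.1.2, AddMonoidHom.add_apply]
  zero_mem' := by
    refine ⟨1, (C0 C H τ).one_mem, ?_⟩
    rw [NN_one C.hV2]
    simp
  neg_mem' := by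
    rintro _ ⟨x, hx, rfl⟩
    exact ⟨x, hx, (Core.Q_neg _).symm⟩

/-- An endomorphism commuting with `η` and killing `e₁` vanishes. -/
lemma end_zero (hτ1 : τ ∉ S1 D) {e₁ : Q V} (he₁ : ηh D τ e₁ ≠ 0) {n : Q V →+ Q V}
    (hn : ∀ q, n (ηh D τ q) = ηh D τ (n q)) (h0 : n e₁ = 0) : n = 0 := by
  have h1 : e₁ ≠ 0 := by
    rintro rfl
    exact he₁ (map_zero _)
  have h3 : e₁ ≠ ηh D τ e₁ := by
    intro h
    apply he₁
    have := ηh_sq C hτ1 e₁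
    rwa [← h] at this
  have hne : n (ηh D τ e₁) = 0 := by
    rw [hn, h0, map_zero]
  apply AddMonoidHom.ext
  intro q
  rw [AddMonoidHom.zero_apply]
  rcases klein_cover (card_Q C.hW) Q_two h1 he₁ h3 q with rfl | rfl | rfl | rfl
  · exact map_zero _
  · exact h0
  · exact hne
  · rw [map_add, h0, hne, add_zero]

/-- The second count. -/
lemma relIndex_H2_C0_le (hτ1 : τ ∉ S1 D) {e₁ : Q V} (he₁ : ηh D τ e₁ ≠ 0) :
    (H ⊓ P2 D).relIndex (C0 C H τ) ≤ Nat.card (A1 C H τ e₁) := by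
  classical
  have hV2 := C.hV2
  apply relIndex_le_of_fun _ _ (X := A1 C H τ e₁) (fun x => if hx : x ∈ C0 C H τ then ⟨NN D x e₁, x, hx, rfl⟩ else 0)
  intro x hx y hy hf
  simp only [hx, hy, dif_pos] at hf
  have h1 : NN D x e₁ = NN D y e₁ := congrArg Subtype.val hf
  have hm := (C0 C H τ).mul_mem ((C0 C H τ).inv_mem hx) hy
  refine ⟨hm.1.1, (NN_eq_zero_iff hV2 hm.1.2).1 ?_⟩
  refine end_zero C hτ1 he₁ hm.2 ?_
  rw [NN_mul hV2 ((S1 D).inv_mem hx.1.2) hy.1.2, NN_inv hV2 hx.1.2, AddMonoidHom.add_apply, h1]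
  exact Q_two _

/-- The `τ`-case. -/
lemma tau_case (Sv : Sav C) (hKH : K ≤ H) (hc : ∀ x ∈ H, ∀ y ∈ H, x * y * x⁻¹ * y⁻¹ ∈ K) (hs : ∀ x ∈ H, x * x ∈ K)
    (hK : K ≤ S1 D) (hτ : τ ∈ H) (hτ1 : τ ∉ S1 D) :
    Nat.card (H ⊓ S1 D : Subgroup S) ≤ 8 * Nat.card K := by
  classical
  have hV2 := C.hV2
  obtain ⟨e₁, he₁⟩ := exists_ηh_ne C hτ1
  have hC0 : C0 C H τ ≤ H ⊓ S1 D := fun x hx => hx.1
  have h1 := card_eq_relIndex_mul hC0
  have h2 := card_eq_relIndex_mul (H2_le_C0 C (H := H) (τ := τ))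
  have h3 := card_H2 (D := D) hKH
  have h4 := card_eq_relIndex_mul (inf_le_left : K ⊓ P2 D ≤ K)
  have h5 := relIndex_C0_le C hc hK hτ
  have h6 := relIndex_H2_C0_le C (H := H) hτ1 he₁
  have h7 := s_le4 C hKH hs
  have hQ4 : Nat.card (A1 C H τ e₁) ≤ 4 := by
    rw [← card_Q (V := V) C.hW]
    exact Nat.card_le_card_of_injective Subtype.val Subtype.val_injective
  have key : (H ⊓ P2 D).relIndex (C0 C H τ) * K.relIndex (H ⊓ P2 D) ≤ 8 := by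
    by_cases hex : ∃ x ∈ C0 C H τ, NN D x = ηh D τ
    · obtain ⟨x, hx, hxe⟩ := hex
      have := Sv.sη hKH hc hs τ hτ1 x hx.1 (fun q => by rw [hxe, ηh_apply])
      calc _ ≤ 4 * 2 := Nat.mul_le_mul (h6.trans hQ4) this
        _ = 8 := rfl
    · have hnot : ηh D τ e₁ ∉ A1 C H τ e₁ := by
        rintro ⟨x, hx, hxe⟩
        apply hex
        refine ⟨x, hx, ?_⟩
        have h0 : NN D x + ηh D τ = 0 := by
          apply end_zero C hτ1 he₁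
          · intro q
            rw [AddMonoidHom.add_apply, AddMonoidHom.add_apply, hx.2, map_add]
          · rw [AddMonoidHom.add_apply, hxe]
            exact Q_two _
        have h02 := End_two (ηh D τ)
        exact add_right_cancel (h0.trans h02.symm)
      have hle2 : Nat.card (A1 C H τ e₁) ≤ 2 := by
        have hd : Nat.card (A1 C H τ e₁) ∣ 4 := by
          rw [← card_Q (V := V) C.hW]
          exact AddSubgroup.card_addSubgroup_dvd_card _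
        have hne : Nat.card (A1 C H τ e₁) ≠ 4 := by
          intro h4'
          have hT : A1 C H τ e₁ = ⊤ := AddSubgroup.eq_top_of_card_eq _ (h4'.trans (card_Q (V := V) C.hW).symm)
          exact hnot (hT ▸ AddSubgroup.mem_top _)
        have hle := Nat.le_of_dvd (by norm_num) hd
        interval_cases hcc : Nat.card (A1 C H τ e₁) <;> first | omega | (exfalso; revert hd; decide)
      calc _ ≤ 2 * 4 := Nat.mul_le_mul (h6.trans hle2) h7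
        _ = 8 := rfl
  rw [h1, h2, h3, h4]
  calc (C0 C H τ).relIndex (H ⊓ S1 D) * ((H ⊓ P2 D).relIndex (C0 C H τ) * (K.relIndex (H ⊓ P2 D) * Nat.card (K ⊓ P2 D : Subgroup S)))
      = (C0 C H τ).relIndex (H ⊓ S1 D) * ((H ⊓ P2 D).relIndex (C0 C H τ) * K.relIndex (H ⊓ P2 D)) * Nat.card (K ⊓ P2 D : Subgroup S) := by ring
    _ ≤ (K ⊓ P2 D).relIndex K * 8 * Nat.card (K ⊓ P2 D : Subgroup S) :=
        Nat.mul_le_mul_right _ (Nat.mul_le_mul h5 key)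
    _ = _ := by ring

end tau

/-- **Assembly**. -/
theorem secBd_of_Sav (Sv : Sav C) : SecBd 4 S := by
  intro H K hKH hc hs
  have hcH := card_eq_relIndex_mul_inf (S1 D) H
  have hcK := card_eq_relIndex_mul_inf (S1 D) K
  rw [inf_comm] at hcH hcK
  have hi := index_S1_le (D := D) C.hS C.hW
  have hiH : (S1 D).relIndex H ≤ 2 :=
    (Nat.le_of_dvd (Nat.pos_of_ne_zero Subgroup.index_ne_zero_of_finite)
      (Subgroup.relIndex_dvd_index_of_normal (S1 D) H)).trans hi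
  have hiK : (S1 D).relIndex K ≤ 2 :=
    (Nat.le_of_dvd (Nat.pos_of_ne_zero Subgroup.index_ne_zero_of_finite)
      (Subgroup.relIndex_dvd_index_of_normal (S1 D) K)).trans hi
  have hmain := card_H1_le Sv hKH hc hs
  by_cases hH : H ≤ S1 D
  · have hK : K ≤ S1 D := hKH.trans hH
    rw [inf_of_le_left hH] at hmain
    rw [inf_of_le_left hK] at hmain
    exact hmain
  · have h2H : (S1 D).relIndex H = 2 := by
      have h1 : (S1 D).relIndex H ≠ 1 := fun h => hH (Subgroup.relIndex_eq_one.1 h)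
      have h0 : 0 < (S1 D).relIndex H := relIndex_pos' _ _
      omega
    by_cases hK : K ≤ S1 D
    · obtain ⟨τ, hτ, hτ1⟩ := SetLike.not_le_iff_exists.1 hH
      have := tau_case C Sv hKH hc hs hK hτ hτ1
      rw [hcH, h2H]
      calc 2 * Nat.card (H ⊓ S1 D : Subgroup S) ≤ 2 * (8 * Nat.card K) := Nat.mul_le_mul_left _ this
        _ = _ := by ring
    · have h2K : (S1 D).relIndex K = 2 := by
        have h1 : (S1 D).relIndex K ≠ 1 := fun h => hK (Subgroup.relIndex_eq_one.1 h)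
        have h0 : 0 < (S1 D).relIndex K := relIndex_pos' _ _
        omega
      rw [hcH, hcK, h2H, h2K]
      calc 2 * Nat.card (H ⊓ S1 D : Subgroup S) ≤ 2 * (16 * Nat.card (K ⊓ S1 D : Subgroup S)) :=
            Nat.mul_le_mul_left _ hmain
        _ = _ := by ring

end Cfsg.Agent.Lib.MacW.Assembly
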