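import Cfsg.Agent.Lib.SelfCentE8.N1
import Cfsg.Agent.Lib.Involutions2.NormalFour

/-!
# The action of `S₁` on `V/2V` at the next level

`D : Mod S V`, with `V[2] ≤ 2V`.  For `x ∈ S₁`, `N x` is the endomorphism of `Q = V/2V` given by
halving `δ x`.  Also the subgroups `P₂`, `P₃`, and the annihilator filtration.
-/

set_option autoImplicit false
set_option linter.unusedSectionVars false

namespace Cfsg.Agent.Lib.MacW.Basic

open Cfsg.Agent.Lib.TwoFusion.SecRank Cfsg.Agent.Lib.SelfCentE8.Setup Cfsg.Agent.Lib.SelfCentE8.Count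
open Cfsg.Agent.Lib.SelfCentE8.TCore Cfsg.Agent.Lib.SelfCentE8.TCount Cfsg.Agent.Lib.SelfCentE8.Gamma
open Mod

variable {S V : Type*} [Group S] [AddCommGroup V] {D : Mod S V}

/-- Elements acting trivially modulo `4V`. -/
def P2 (D : Mod S V) : Subgroup S := D.Stab ⊤ (Dbl 4) (D.inv_Dbl 4)

/-- Elements acting trivially modulo `8V`. -/
def P3 (D : Mod S V) : Subgroup S := D.Stab ⊤ (Dbl 8) (D.inv_Dbl 8)

/-- Elements with `2^j δ = 0`. -/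
def Ann (D : Mod S V) (j : ℕ) : Subgroup S := D.Stab ⊤ (Tor (2 ^ j)) (D.inv_Tor _)

lemma mem_P2 {x : S} : x ∈ P2 D ↔ ∀ v : V, ∃ w, (4 : ℕ) • w = D.δ x v :=
  ⟨fun h v => h v trivial, fun h v _ => h v⟩

lemma mem_P3 {x : S} : x ∈ P3 D ↔ ∀ v : V, ∃ w, (8 : ℕ) • w = D.δ x v :=
  ⟨fun h v => h v trivial, fun h v _ => h v⟩

lemma mem_Ann {x : S} {j : ℕ} : x ∈ Ann D j ↔ ∀ v : V, (2 ^ j : ℕ) • D.δ x v = 0 :=
  ⟨fun h v => h v trivial, fun h v _ => h v⟩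

instance P2_normal : (P2 D).Normal := D.Stab_normal D.inv_top (D.inv_Dbl 4)
instance P3_normal : (P3 D).Normal := D.Stab_normal D.inv_top (D.inv_Dbl 8)
instance Ann_normal (j : ℕ) : (Ann D j).Normal := D.Stab_normal D.inv_top (D.inv_Tor _)

lemma B_le_P2 : D.B ≤ P2 D := D.B_le_Stab _
lemma B_le_P3 : D.B ≤ P3 D := D.B_le_Stab _
lemma B_le_Ann (j : ℕ) : D.B ≤ Ann D j := D.B_le_Stab _

lemma P3_le_P2 : P3 D ≤ P2 D := by
  intro x hx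
  refine mem_P2.2 (fun v => ?_)
  obtain ⟨w, hw⟩ := mem_P3.1 hx v
  exact ⟨(2 : ℕ) • w, by rw [← hw, ← mul_nsmul']⟩

lemma P2_le_S1 : P2 D ≤ S1 D := by
  intro x hx
  refine mem_S1.2 (fun v => ?_)
  obtain ⟨w, hw⟩ := mem_P2.1 hx v
  exact ⟨(2 : ℕ) • w, by rw [← hw, ← mul_nsmul']⟩

lemma mem_B_of_Ann_zero {x : S} (h : x ∈ Ann D 0) : x ∈ D.B := by
  rw [D.mem_B_iff]
  intro v
  have := mem_Ann.1 h v
  simp only [pow_zero, one_smul, δ_def, sub_eq_zero] at this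
  exact this

lemma Ann_zero_eq : Ann D 0 = D.B :=
  le_antisymm (fun _ h => mem_B_of_Ann_zero h) (B_le_Ann 0)

lemma Ann_one_eq : Ann D 1 = T D := by
  ext x
  rw [mem_Ann, mem_T]
  simp

lemma Ann_mono {i j : ℕ} (h : i ≤ j) : Ann D i ≤ Ann D j := by
  intro x hx
  refine mem_Ann.2 (fun v => ?_)
  obtain ⟨k, rfl⟩ := Nat.exists_eq_add_of_le h
  rw [pow_add, mul_comm, mul_nsmul', mem_Ann.1 hx v, smul_zero]

lemma δ_sq (x : S) (v : V) : D.δ (x * x) v = (2 : ℕ) • D.δ x v + D.δ x (D.δ x v) := by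
  rw [D.δ_mul, D.ρ_eq x (D.δ x v), two_nsmul]
  abel

lemma δ_zsmul (x : S) (n : ℤ) (v : V) : D.δ x (n • v) = n • D.δ x v := by
  simp only [δ, map_zsmul, smul_sub]

/-- The commutator formula. -/
lemma δ_comm {x y : S} {v w : V} (hw : D.ρ y (D.ρ x w) = v) :
    D.δ (x * y * x⁻¹ * y⁻¹) v = D.δ x (D.δ y w) - D.δ y (D.δ x w) := by
  have e : D.ρ (x * y * x⁻¹ * y⁻¹) v = D.ρ x (D.ρ y w) := by
    rw [← hw]
    simp [D.ρ_mul]
  have h1 : D.ρ x (D.ρ y w) = w + D.δ y w + D.δ x w + D.δ x (D.δ y w) := by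
    rw [D.ρ_eq y w, map_add, D.ρ_eq x w, D.ρ_eq x (D.δ y w)]
    abel
  have h2 : D.ρ y (D.ρ x w) = w + D.δ y w + D.δ x w + D.δ y (D.δ x w) := by
    rw [D.ρ_eq x w, map_add, D.ρ_eq y w, D.ρ_eq y (D.δ x w)]
    abel
  rw [δ_def, e, ← hw, h1, h2]
  abel

lemma exists_ρ_inv (x y : S) (v : V) : ∃ w, D.ρ y (D.ρ x w) = v :=
  ⟨D.ρ x⁻¹ (D.ρ y⁻¹ v), by simp⟩

lemma two_pow_smul (j : ℕ) (a : V) : (2 ^ j : ℕ) • ((2 : ℕ) • a) = (2 ^ (j + 1) : ℕ) • a := by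
  rw [← mul_nsmul', pow_succ]

lemma mkQ_add (u v : V) : mkQ (u + v) = mkQ u + mkQ v := rfl

section hV2

variable [Finite V] (hV2 : ∀ w : V, (2 : ℕ) • w = 0 → w ∈ (Dbl 2 : AddSubgroup V))
include hV2

lemma T_le_S1 : T D ≤ S1 D := by
  intro x hx
  refine mem_S1.2 (fun v => ?_)
  exact hV2 _ (mem_T.1 hx v)

omit hV2 in
/-- Halving modulo `2V`. -/
noncomputable def halfQ (a : V) : Q V := by
  classical exact if h : ∃ u : V, (2 : ℕ) • u = a then mkQ h.choose else 0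

lemma mkQ_eq_of_two {u u' : V} (h : (2 : ℕ) • u = (2 : ℕ) • u') : mkQ u = mkQ u' := by
  apply mkQ_eq.2
  apply hV2
  rw [nsmul_sub, h, sub_self]

lemma halfQ_spec {u a : V} (h : (2 : ℕ) • u = a) : halfQ a = mkQ u := by
  have hex : ∃ u : V, (2 : ℕ) • u = a := ⟨u, h⟩
  have e : halfQ a = mkQ hex.choose := by
    unfold halfQ
    simp only [dif_pos hex]
  rw [e]
  exact mkQ_eq_of_two hV2 (hex.choose_spec.trans h.symm)

/-- The additive map behind `N x`. -/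
noncomputable def NN₀ (D : Mod S V) (x : S) (hx : x ∈ S1 D)
    (hV2 : ∀ w : V, (2 : ℕ) • w = 0 → w ∈ (Dbl 2 : AddSubgroup V)) : V →+ Q V :=
  AddMonoidHom.mk' (fun v => halfQ (D.δ x v)) (by
    intro u v
    obtain ⟨a, ha⟩ := mem_S1.1 hx u
    obtain ⟨b, hb⟩ := mem_S1.1 hx v
    rw [D.δ_add, halfQ_spec hV2 ha, halfQ_spec hV2 hb, halfQ_spec hV2 (u := a + b) (by rw [nsmul_add, ha, hb])]
    rfl)

/-- The lift of `NN₀`. -/
noncomputable def NN₁ (D : Mod S V) (x : S) (hx : x ∈ S1 D)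
    (hV2 : ∀ w : V, (2 : ℕ) • w = 0 → w ∈ (Dbl 2 : AddSubgroup V)) : Q V →+ Q V :=
  QuotientAddGroup.lift (Dbl 2 : AddSubgroup V) (NN₀ D x hx hV2) (by
    rintro _ ⟨v, rfl⟩
    change halfQ (D.δ x ((2 : ℕ) • v)) = 0
    obtain ⟨a, ha⟩ := mem_S1.1 hx v
    rw [halfQ_spec hV2 (u := (2 : ℕ) • a) (by rw [D.δ_nsmul, ha])]
    exact mkQ_eq_zero.2 ⟨a, rfl⟩)

open Classical in
/-- The endomorphism `N x` of `Q` (zero when not defined). -/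
noncomputable def NN (D : Mod S V) (x : S) : Q V →+ Q V :=
  if h : x ∈ S1 D ∧ ∀ w : V, (2 : ℕ) • w = 0 → w ∈ (Dbl 2 : AddSubgroup V) then NN₁ D x h.1 h.2 else 0

lemma NN_spec {x : S} (hx : x ∈ S1 D) {u v : V} (h : (2 : ℕ) • u = D.δ x v) : NN D x (mkQ v) = mkQ u := by
  have hh : x ∈ S1 D ∧ ∀ w : V, (2 : ℕ) • w = 0 → w ∈ (Dbl 2 : AddSubgroup V) := ⟨hx, hV2⟩
  have e : NN D x (mkQ v) = halfQ (D.δ x v) := by
    unfold NN
    simp only [dif_pos hh]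
    rfl
  rw [e, halfQ_spec hV2 h]

lemma NN_ext {x : S} {n : Q V →+ Q V} (hx : x ∈ S1 D)
    (h : ∀ u v, (2 : ℕ) • u = D.δ x v → n (mkQ v) = mkQ u) : NN D x = n := by
  apply AddMonoidHom.ext
  intro q
  obtain ⟨v, rfl⟩ := QuotientAddGroup.mk_surjective q
  obtain ⟨u, hu⟩ := mem_S1.1 hx v
  change NN D x (mkQ v) = n (mkQ v)
  rw [NN_spec hV2 hx hu, h u v hu]

lemma NN_mul {x y : S} (hx : x ∈ S1 D) (hy : y ∈ S1 D) : NN D (x * y) = NN D x + NN D y := by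
  refine NN_ext hV2 ((S1 D).mul_mem hx hy) (fun u v h => ?_)
  obtain ⟨a, ha⟩ := mem_S1.1 hx v
  obtain ⟨b, hb⟩ := mem_S1.1 hy v
  obtain ⟨c, hc⟩ := mem_S1.1 hx b
  have e : u = a + b + (2 : ℕ) • c ∨ True := Or.inr trivial
  rw [AddMonoidHom.add_apply, NN_spec hV2 hx ha, NN_spec hV2 hy hb]
  have h2 : (2 : ℕ) • u = (2 : ℕ) • (a + b + (2 : ℕ) • c) := by
    rw [h, D.δ_mul, D.ρ_eq x (D.δ y v), ← hb, D.δ_nsmul, ← hc, ← ha]
    simp only [nsmul_add]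
    abel
  have h3 : mkQ ((2 : ℕ) • c) = 0 := mkQ_eq_zero.2 ⟨c, rfl⟩
  rw [mkQ_eq_of_two hV2 h2, mkQ_add, mkQ_add, h3, add_zero]

lemma NN_one : NN D 1 = 0 := by
  refine NN_ext hV2 (S1 D).one_mem (fun u v h => ?_)
  have h0 : D.δ 1 v = 0 := by simp [δ]
  rw [h0] at h
  have h2 := hV2 u h
  rw [AddMonoidHom.zero_apply]
  exact (mkQ_eq_zero.2 h2).symm

omit hV2 in
lemma End_two (n : Q V →+ Q V) : n + n = 0 := by
  apply AddMonoidHom.ext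
  intro q
  rw [AddMonoidHom.add_apply]
  exact Q_two _

lemma NN_inv {x : S} (hx : x ∈ S1 D) : NN D x⁻¹ = NN D x := by
  have h := NN_mul hV2 ((S1 D).inv_mem hx) hx
  rw [inv_mul_cancel, NN_one hV2] at h
  have h2 := End_two (NN D x)
  exact add_right_cancel (h.symm.trans h2.symm)

lemma NN_eq_zero_iff {x : S} (hx : x ∈ S1 D) : NN D x = 0 ↔ x ∈ P2 D := by
  constructor
  · intro h
    refine mem_P2.2 (fun v => ?_)
    obtain ⟨u, hu⟩ := mem_S1.1 hx v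
    have h1 := NN_spec hV2 hx hu
    rw [h, AddMonoidHom.zero_apply] at h1
    obtain ⟨w, hw⟩ := mkQ_eq_zero.1 h1.symm
    have hw' : (2 : ℕ) • w = u := hw
    refine ⟨w, ?_⟩
    rw [← hu, ← hw', ← mul_nsmul']
  · intro h
    refine NN_ext hV2 hx (fun u v huv => ?_)
    obtain ⟨w, hw⟩ := mem_P2.1 h v
    have h2 : (2 : ℕ) • u = (2 : ℕ) • ((2 : ℕ) • w) := by
      rw [huv, ← hw, ← mul_nsmul']
    rw [mkQ_eq_of_two hV2 h2, AddMonoidHom.zero_apply]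
    exact (mkQ_eq_zero.2 ⟨w, rfl⟩).symm

lemma NN_eq_iff {x y : S} (hx : x ∈ S1 D) (hy : y ∈ S1 D) : NN D x = NN D y ↔ x⁻¹ * y ∈ P2 D := by
  have hm := (S1 D).mul_mem ((S1 D).inv_mem hx) hy
  rw [← NN_eq_zero_iff hV2 hm, NN_mul hV2 ((S1 D).inv_mem hx) hy, NN_inv hV2 hx]
  constructor
  · intro h
    rw [h]
    exact End_two _
  · intro h
    have h2 := End_two (NN D y)
    exact add_right_cancel (h.trans h2.symm)

lemma NN_conj (g : S) {x : S} (hx : x ∈ S1 D) (q : Q V) :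
    NN D (g * x * g⁻¹) (ρQ D g q) = ρQ D g (NN D x q) := by
  obtain ⟨v, rfl⟩ := QuotientAddGroup.mk_surjective q
  obtain ⟨u, hu⟩ := mem_S1.1 hx v
  have hx' : g * x * g⁻¹ ∈ S1 D := (inferInstance : (S1 D).Normal).conj_mem x hx g
  have h1 : (2 : ℕ) • D.ρ g u = D.δ (g * x * g⁻¹) (D.ρ g v) := by
    rw [D.δ_conj, ← map_nsmul, hu]
    simp
  change NN D (g * x * g⁻¹) (mkQ (D.ρ g v)) = ρQ D g (NN D x (mkQ v))
  rw [NN_spec hV2 hx' h1, NN_spec hV2 hx hu]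
  rfl

lemma T_kills_Dbl {x : S} (hx : x ∈ T D) {v : V} (hv : v ∈ (Dbl 2 : AddSubgroup V)) : D.δ x v = 0 := by
  obtain ⟨u, rfl⟩ := hv
  change D.δ x ((2 : ℕ) • u) = 0
  rw [D.δ_nsmul]
  exact mem_T.1 hx u

end hV2

section ann

lemma sq_mem_Ann {x : S} (hx : x ∈ S1 D) {j : ℕ} (h : x ∈ Ann D (j + 1)) : x * x ∈ Ann D j := by
  refine mem_Ann.2 (fun v => ?_)
  rw [δ_sq]
  obtain ⟨u, hu⟩ := mem_S1.1 hx v
  rw [← hu, D.δ_nsmul, hu, smul_add, two_pow_smul, two_pow_smul, mem_Ann.1 h u, mem_Ann.1 h v, zero_add]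

/-- The descent: a square in `Ann j` forces `Ann (j+1)`. -/
lemma mem_Ann_of_sq {M : ℕ} (hM : ∀ v : V, (2 ^ M : ℕ) • v = 0) {x : S} {j : ℕ} (hsq : x * x ∈ Ann D j)
    (hcov : ∀ w : V, ∃ v u w', (2 : ℕ) • u = D.δ x v ∧ w = v + u + (2 : ℕ) • w') : x ∈ Ann D (j + 1) := by
  have key : ∀ w : V, ∃ w' : V, (2 ^ (j + 1) : ℕ) • D.δ x w = (2 : ℕ) • ((2 ^ (j + 1) : ℕ) • D.δ x w') := by
    intro w
    obtain ⟨v, u, w', hu, rfl⟩ := hcov w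
    refine ⟨w', ?_⟩
    have h1 := mem_Ann.1 hsq v
    rw [δ_sq, ← hu, D.δ_nsmul, hu, smul_add, two_pow_smul, two_pow_smul] at h1
    have h2 : (2 ^ (j + 1) : ℕ) • (D.δ x v + D.δ x u) = 0 := by
      rw [smul_add]
      exact h1
    rw [D.δ_add, D.δ_add, D.δ_nsmul, smul_add, h2, zero_add, smul_comm]
  have iter : ∀ k : ℕ, ∀ w : V, ∃ w' : V, (2 ^ (j + 1) : ℕ) • D.δ x w = (2 ^ k : ℕ) • ((2 ^ (j + 1) : ℕ) • D.δ x w') := by
    intro k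
    induction k with
    | zero => exact fun w => ⟨w, by simp⟩
    | succ k ih =>
      intro w
      obtain ⟨w₁, h₁⟩ := ih w
      obtain ⟨w₂, h₂⟩ := key w₁
      refine ⟨w₂, ?_⟩
      rw [h₁, h₂, ← mul_nsmul, pow_succ' 2 k]
  refine mem_Ann.2 (fun v => ?_)
  obtain ⟨w', h⟩ := iter M v
  rw [h, hM]

/-- The covering hypothesis for `P₂`. -/
lemma hcov_P2 {x : S} (hx : x ∈ P2 D) (w : V) :
    ∃ v u w', (2 : ℕ) • u = D.δ x v ∧ w = v + u + (2 : ℕ) • w' := by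
  obtain ⟨a, ha⟩ := mem_P2.1 hx w
  refine ⟨w, (2 : ℕ) • a, -a, by rw [← ha, ← mul_nsmul'], ?_⟩
  rw [smul_neg]
  abel

/-- The commutators go down two steps. -/
lemma comm_mem_Ann {x y : S} (hx : x ∈ P2 D) (hy : y ∈ P2 D) {j : ℕ} (hx' : x ∈ Ann D (j + 2)) (hy' : y ∈ Ann D (j + 2)) :
    x * y * x⁻¹ * y⁻¹ ∈ Ann D j := by
  refine mem_Ann.2 (fun v => ?_)
  obtain ⟨w, hw⟩ := exists_ρ_inv (D := D) x y v
  rw [δ_comm hw]
  obtain ⟨a, ha⟩ := mem_P2.1 hx w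
  obtain ⟨b, hb⟩ := mem_P2.1 hy w
  rw [← ha, ← hb, D.δ_nsmul, D.δ_nsmul, smul_sub, ← mul_nsmul, ← mul_nsmul]
  have e : (4 * 2 ^ j : ℕ) = 2 ^ (j + 2) := by rw [pow_add]; ring
  rw [e, mem_Ann.1 hx' b, mem_Ann.1 hy' a, sub_zero]

end ann

end Cfsg.Agent.Lib.MacW.Basic
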