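import Cfsg.Agent.Lib.MacW.CaseAB

/-!
# The case `V[2] ≤ 4V`
-/

set_option autoImplicit false
set_option linter.unusedSectionVars false

namespace Cfsg.Agent.Lib.MacW.CaseA

open Cfsg.Agent.Lib.TwoFusion.SecRank Cfsg.Agent.Lib.SelfCentE8.Setup Cfsg.Agent.Lib.SelfCentE8.Count
open Cfsg.Agent.Lib.SelfCentE8.TCore Cfsg.Agent.Lib.SelfCentE8.TCount Cfsg.Agent.Lib.SelfCentE8.Gamma
open Cfsg.Agent.Lib.SelfCentE8.N1
open Cfsg.Agent.Lib.MacW.Basic Cfsg.Agent.Lib.MacW.Chain Cfsg.Agent.Lib.MacW.Sigma Cfsg.Agent.Lib.MacW.Core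
open Cfsg.Agent.Lib.MacW.Level2 Cfsg.Agent.Lib.MacW.Finite Cfsg.Agent.Lib.MacW.Assembly
open Cfsg.Agent.Lib.MacW.CaseAB
open Mod

variable {S V : Type*} [Group S] [AddCommGroup V] {D : Mod S V} [Finite V] [Finite S] (C : Ctx D)

include C

lemma Tor4_le (hA : ∀ w : V, (2 : ℕ) • w = 0 → w ∈ (Dbl 4 : AddSubgroup V)) {r : V} (hr : (4 : ℕ) • r = 0) :
    mkQ r = 0 := by
  have h1 : (2 : ℕ) • ((2 : ℕ) • r) = 0 := by
    rw [← mul_nsmul']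
    exact hr
  obtain ⟨a, ha⟩ := hA _ h1
  have ha' : (4 : ℕ) • a = (2 : ℕ) • r := ha
  have h2 : (2 : ℕ) • (r - (2 : ℕ) • a) = 0 := by
    rw [smul_sub, ← mul_nsmul', ha', sub_self]
  have h3 := C.hV2 _ h2
  have h0 : mkQ ((2 : ℕ) • a) = 0 := mkQ_eq_zero.2 ⟨a, rfl⟩
  rw [← mkQ_eq_zero, mkQ_sub C.hV2, h0, add_zero] at h3
  exact h3

lemma not_P3 (hA : ∀ w : V, (2 : ℕ) • w = 0 → w ∈ (Dbl 4 : AddSubgroup V)) {x : S} (hx : x ∈ S1 D)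
    (hq : qN (NN D x) ≠ 0) : x * x ∉ P3 D := by
  intro h
  apply hq
  apply AddMonoidHom.ext
  intro q
  obtain ⟨r, hr, he⟩ := sq_level_one C.hV2 hx h q
  rw [he, Tor4_le C hA hr]
  rfl

/-- **The case `V[2] ≤ 4V`.** -/
theorem secBd_A (hA : ∀ w : V, (2 : ℕ) • w = 0 → w ∈ (Dbl 4 : AddSubgroup V)) : SecBd 4 S := by
  obtain ⟨ε⟩ := exists_ε C
  have L1 : ∀ r : V, (4 : ℕ) • r = 0 → (ε (mkQ r)).1 = 0 := by
    intro r hr
    rw [Tor4_le C hA hr, map_zero]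
    rfl
  refine secBd_of_Sav (C := C) ⟨?_, ?_, ?_⟩
  · intro H K hKH hc hs h4
    refine s2_AB C ε L1 (fun hKH' hc' hs' x hx he => ?_) hKH hc hs h4
    refine s_le2_of_sq C hKH' hs' hx.1 hx.2 (not_P3 C hA hx.2 (fun h0 => ?_))
    have h1 := mat_qN ε (NN D x)
    rw [h0, mat_zero, he] at h1
    revert h1
    decide
  · intro H K hKH hc hs h8
    exact s1_AB C ε L1 hKH hs h8
  · intro H K hKH hc hs τ hτ x hx hN
    refine s_le2_of_sq C hKH hs hx.1 hx.2 (not_P3 C hA hx.2 (fun h0 => ?_))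
    obtain ⟨e₁, he₁⟩ := exists_ηh_ne C hτ
    have h1 : NN D x = ηh D τ := AddMonoidHom.ext (fun q => by rw [hN, ηh_apply])
    have h2 : qN (NN D x) e₁ = 0 := by
      rw [h0]
      rfl
    rw [qN_apply, h1, ηh_sq C hτ, add_zero] at h2
    exact he₁ h2

end Cfsg.Agent.Lib.MacW.CaseA
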