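import Cfsg.Agent.Lib.MacW.Assembly

/-!
# The cases where `V[4]` is small in `Q`
-/

set_option autoImplicit false
set_option linter.unusedSectionVars false

namespace Cfsg.Agent.Lib.MacW.CaseAB

open Cfsg.Agent.Lib.TwoFusion.SecRank Cfsg.Agent.Lib.SelfCentE8.Setup Cfsg.Agent.Lib.SelfCentE8.Count
open Cfsg.Agent.Lib.SelfCentE8.TCore Cfsg.Agent.Lib.SelfCentE8.TCount Cfsg.Agent.Lib.SelfCentE8.Gamma
open Cfsg.Agent.Lib.SelfCentE8.N1
open Cfsg.Agent.Lib.MacW.Basic Cfsg.Agent.Lib.MacW.Chain Cfsg.Agent.Lib.MacW.Sigma Cfsg.Agent.Lib.MacW.Core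
open Cfsg.Agent.Lib.MacW.Level2 Cfsg.Agent.Lib.MacW.Finite Cfsg.Agent.Lib.MacW.Assembly
open Mod

variable {S V : Type*} [Group S] [AddCommGroup V] {D : Mod S V} [Finite V] [Finite S] (C : Ctx D)

lemma mat_qN (ε : Q V ≃+ F2) (n : Q V →+ Q V) : mat ε (qN n) = qq (mat ε n) := by
  rw [qN, mat_add, mat_comp]
  rfl

/-- The first row of `A + A²`. -/
def row (c : M0) : F2 := ((qq c).1.1, (qq c).2.1)

lemma app_e1 (A : M0) : app A (1, 0) = A.1 := by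
  revert A
  decide

lemma app_e2 (A : M0) : app A (0, 1) = A.2 := by
  revert A
  decide

lemma ZMod2_eq_of_add {a b : ZMod 2} (h : a + b = 0) : a = b := by
  revert a b
  decide

variable (ε : Q V ≃+ F2) (L1 : ∀ r : V, (4 : ℕ) • r = 0 → (ε (mkQ r)).1 = 0)

include C L1

lemma row_eq {x x' : S} (hx : x ∈ S1 D) (hx' : x' ∈ S1 D) (h : (x * x)⁻¹ * (x' * x') ∈ P3 D) :
    row (mat ε (NN D x)) = row (mat ε (NN D x')) := by
  have key : ∀ q, (ε (qN (NN D x) q)).1 = (ε (qN (NN D x') q)).1 := by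
    intro q
    obtain ⟨r, hr, he⟩ := sq_level C.hV2 hx hx' h q
    have h1 := L1 r hr
    rw [← he, map_add, Prod.fst_add] at h1
    exact ZMod2_eq_of_add h1
  have h1 := key (ε.symm (1, 0))
  have h2 := key (ε.symm (0, 1))
  rw [ε_app ε, ε_app ε (qN (NN D x')), ε.apply_symm_apply, mat_qN, mat_qN, app_e1, app_e1] at h1
  rw [ε_app ε, ε_app ε (qN (NN D x')), ε.apply_symm_apply, mat_qN, mat_qN, app_e2, app_e2] at h2
  exact Prod.ext h1 h2

lemma row_zero {x : S} (hx : x ∈ S1 D) (h : x * x ∈ P3 D) : row (mat ε (NN D x)) = 0 := by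
  have h1 := row_eq C ε L1 hx (S1 D).one_mem (x' := 1) (by simpa using (P3 D).inv_mem h)
  rw [h1, NN_one C.hV2, mat_zero]
  decide

/-- Saving from a first row. -/
lemma s2_of_row {H K : Subgroup S} (hKH : K ≤ H) (hs : ∀ x ∈ H, x * x ∈ K) {x : S} (hx : x ∈ H ⊓ S1 D)
    (hr : row (mat ε (NN D x)) ≠ 0) : K.relIndex (H ⊓ P2 D) ≤ 2 :=
  s_le2_of_sq C hKH hs hx.1 hx.2 (fun h => hr (row_zero C ε L1 hx.2 h))

/-- `s₂` for these cases. -/
lemma s2_AB (L2 : ∀ {H K : Subgroup S}, K ≤ H → (∀ x ∈ H, ∀ y ∈ H, x * y * x⁻¹ * y⁻¹ ∈ K) → (∀ x ∈ H, x * x ∈ K) →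
      ∀ x ∈ H ⊓ S1 D, mat ε (NN D x) = E21 → K.relIndex (H ⊓ P2 D) ≤ 2)
    {H K : Subgroup S} (hKH : K ≤ H) (hc : ∀ x ∈ H, ∀ y ∈ H, x * y * x⁻¹ * y⁻¹ ∈ K) (hs : ∀ x ∈ H, x * x ∈ K)
    (h4 : 4 < Nat.card (Abar C H)) : K.relIndex (H ⊓ P2 D) ≤ 2 := by
  obtain ⟨n, ⟨x, hx, rfl⟩, hP⟩ := exists_of_check ε fin_B (Abar C H) h4
  simp only [PB, Bool.or_eq_true, decide_eq_true_eq] at hP
  rcases hP with (h | h) | h
  · exact L2 hKH hc hs x hx h
  · refine s2_of_row C ε L1 hKH hs hx (fun h0 => h ?_)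
    exact congrArg Prod.fst h0
  · refine s2_of_row C ε L1 hKH hs hx (fun h0 => h ?_)
    exact congrArg Prod.snd h0

/-- `s₁` for these cases. -/
lemma s1_AB {H K : Subgroup S} (hKH : K ≤ H) (hs : ∀ x ∈ H, x * x ∈ K)
    (h8 : 8 < Nat.card (Abar C H)) : K.relIndex (H ⊓ P2 D) ≤ 1 := by
  haveI := finite_End ε
  have hT : Abar C H = ⊤ := eq_top_of_lt _ (card_End ε) h8
  have hex : ∀ c : M0, ∃ x ∈ H ⊓ S1 D, mat ε (NN D x) = c := by
    intro c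
    obtain ⟨n, rfl⟩ := mat_surj ε c
    have : n ∈ Abar C H := by
      rw [hT]
      exact AddSubgroup.mem_top n
    obtain ⟨x, hx, rfl⟩ := this
    exact ⟨x, hx, rfl⟩
  obtain ⟨x₁, h₁, e₁⟩ := hex ((1, 1), (1, 0))
  obtain ⟨x₂, h₂, e₂⟩ := hex ((0, 0), (1, 0))
  obtain ⟨x₃, h₃, e₃⟩ := hex ((0, 1), (1, 0))
  refine s_le1_of_three C hKH hs h₁.1 h₂.1 h₃.1 h₁.2 h₂.2 h₃.2 ?_ ?_ ?_ ?_ ?_ ?_
  · intro h
    have := row_zero C ε L1 h₁.2 h
    rw [e₁] at this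
    revert this
    decide
  · intro h
    have := row_zero C ε L1 h₂.2 h
    rw [e₂] at this
    revert this
    decide
  · intro h
    have := row_zero C ε L1 h₃.2 h
    rw [e₃] at this
    revert this
    decide
  · intro h
    have := row_eq C ε L1 h₁.2 h₂.2 h
    rw [e₁, e₂] at this
    revert this
    decide
  · intro h
    have := row_eq C ε L1 h₁.2 h₃.2 h
    rw [e₁, e₃] at this
    revert this
    decide
  · intro h
    have := row_eq C ε L1 h₂.2 h₃.2 h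
    rw [e₂, e₃] at this
    revert this
    decide

end Cfsg.Agent.Lib.MacW.CaseAB
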