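import Cfsg.Agent.Lib.MacW.CaseAB

/-!
# The case `4V ≠ 0`, `V[2] ≰ 4V`
-/

set_option autoImplicit false
set_option linter.unusedSectionVars false

namespace Cfsg.Agent.Lib.MacW.CaseB

open Cfsg.Agent.Lib.TwoFusion.SecRank Cfsg.Agent.Lib.SelfCentE8.Setup Cfsg.Agent.Lib.SelfCentE8.Count
open Cfsg.Agent.Lib.SelfCentE8.TCore Cfsg.Agent.Lib.SelfCentE8.TCount Cfsg.Agent.Lib.SelfCentE8.Gamma
open Cfsg.Agent.Lib.SelfCentE8.N1
open Cfsg.Agent.Lib.MacW.Basic Cfsg.Agent.Lib.MacW.Chain Cfsg.Agent.Lib.MacW.Sigma Cfsg.Agent.Lib.MacW.Core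
open Cfsg.Agent.Lib.MacW.Level2 Cfsg.Agent.Lib.MacW.Finite Cfsg.Agent.Lib.MacW.Assembly
open Cfsg.Agent.Lib.MacW.CaseAB
open Mod

variable {S V : Type*} [Group S] [AddCommGroup V] {D : Mod S V} [Finite V] [Finite S] (C : Ctx D)

/-- A generating pair adapted to `V ≅ Z_{2^m} × Z₄`. -/
structure BData (V : Type*) [AddCommGroup V] (p f : V) : Prop where
  hf4 : (4 : ℕ) • f = 0
  hf2 : f ∉ (Dbl 2 : AddSubgroup V)
  hp : ∀ r : V, (4 : ℕ) • r = 0 → p - r ∉ (Dbl 2 : AddSubgroup V)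

include C

/-- Existence of the adapted pair. -/
lemma exists_BData (hB : ∃ e : V, (2 : ℕ) • e = 0 ∧ e ∉ (Dbl 4 : AddSubgroup V)) (h4 : ∃ v : V, (4 : ℕ) • v ≠ 0) :
    ∃ p f : V, BData V p f := by
  obtain ⟨e, he, he4⟩ := hB
  obtain ⟨f, hf⟩ := C.hV2 e he
  have hf' : (2 : ℕ) • f = e := hf
  have hf4 : (4 : ℕ) • f = 0 := by
    have : (4 : ℕ) • f = (2 : ℕ) • ((2 : ℕ) • f) := by rw [← mul_nsmul']
    rw [this, hf', he]
  have hf2 : f ∉ (Dbl 2 : AddSubgroup V) := by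
    rintro ⟨a, ha⟩
    have ha' : (2 : ℕ) • a = f := ha
    apply he4
    refine ⟨a, ?_⟩
    change (4 : ℕ) • a = e
    rw [← hf', ← ha', ← mul_nsmul']
  by_contra hno
  have hall : ∀ p : V, ∃ r : V, (4 : ℕ) • r = 0 ∧ p - r ∈ (Dbl 2 : AddSubgroup V) := by
    intro p
    by_contra hp
    push Not at hp
    exact hno ⟨p, f, hf4, hf2, hp⟩
  obtain ⟨M, hM⟩ := exists_exp D C.hS
  have iter : ∀ k : ℕ, ∀ v : V, ∃ w : V, (4 : ℕ) • v = (4 : ℕ) • ((2 ^ k : ℕ) • w) := by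
    intro k
    induction k with
    | zero => exact fun v => ⟨v, by simp⟩
    | succ k ih =>
      intro v
      obtain ⟨w, hw⟩ := ih v
      obtain ⟨r, hr, a, ha⟩ := hall w
      have ha' : (2 : ℕ) • a = w - r := ha
      refine ⟨a, ?_⟩
      rw [hw]
      have e1 : w = r + (2 : ℕ) • a := by rw [ha']; abel
      have e2 : (4 : ℕ) • (2 ^ k : ℕ) • r = 0 := by rw [smul_comm, hr, smul_zero]
      have e3 : (4 : ℕ) • (2 ^ k : ℕ) • (r + (2 : ℕ) • a) =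
          (4 : ℕ) • (2 ^ k : ℕ) • r + (4 : ℕ) • (2 ^ (k + 1) : ℕ) • a := by
        rw [pow_succ]
        module
      rw [e1, e3, e2, zero_add]
  obtain ⟨v, hv⟩ := h4
  obtain ⟨w, hw⟩ := iter M v
  rw [hM, smul_zero] at hw
  exact hv hw

variable {p f : V} (B : BData V p f)
include B

lemma mkQ_f_ne : mkQ f ≠ 0 := fun h => B.hf2 (mkQ_eq_zero.1 h)

lemma mkQ_p_ne : mkQ p ≠ 0 := by
  intro h
  have h1 := B.hp 0 (by simp)
  rw [sub_zero] at h1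
  exact h1 (mkQ_eq_zero.1 h)

lemma mkQ_p_ne_f : mkQ p ≠ mkQ f := fun h => B.hp f B.hf4 (mkQ_eq.1 h)

lemma coverQ (q : Q V) : q = 0 ∨ q = mkQ p ∨ q = mkQ f ∨ q = mkQ p + mkQ f :=
  klein_cover (card_Q C.hW) Q_two (mkQ_p_ne C B) (mkQ_f_ne C B) (mkQ_p_ne_f C B) q

/-- Elements of `V` in terms of the pair. -/
lemma gen (v : V) : ∃ i j : ℤ, v = i • p + j • f := by
  have step : ∀ v : V, ∃ i j : ℤ, ∃ w : V, v = i • p + j • f + (2 : ℕ) • w := by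
    intro v
    rcases coverQ C B (mkQ v) with h | h | h | h
    · obtain ⟨w, hw⟩ := mkQ_eq_zero.1 h
      have hw' : (2 : ℕ) • w = v := hw
      exact ⟨0, 0, w, by rw [hw']; simp⟩
    · obtain ⟨w, hw⟩ := mkQ_eq.1 h
      have hw' : (2 : ℕ) • w = v - p := hw
      exact ⟨1, 0, w, by rw [hw']; simp⟩
    · obtain ⟨w, hw⟩ := mkQ_eq.1 h
      have hw' : (2 : ℕ) • w = v - f := hw
      exact ⟨0, 1, w, by rw [hw']; simp⟩
    · rw [← mkQ_add] at h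
      obtain ⟨w, hw⟩ := mkQ_eq.1 h
      have hw' : (2 : ℕ) • w = v - (p + f) := hw
      exact ⟨1, 1, w, by rw [hw']; simp⟩
  have iter : ∀ k : ℕ, ∀ v : V, ∃ i j : ℤ, ∃ w : V, v = i • p + j • f + (2 ^ k : ℕ) • w := by
    intro k
    induction k with
    | zero => exact fun v => ⟨0, 0, v, by simp⟩
    | succ k ih =>
      intro v
      obtain ⟨i, j, w, hw⟩ := ih v
      obtain ⟨i', j', w', hw'⟩ := step w
      refine ⟨i + (2 ^ k : ℕ) * i', j + (2 ^ k : ℕ) * j', w', ?_⟩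
      rw [hw, hw', pow_succ]
      module
  obtain ⟨M, hM⟩ := exists_exp D C.hS
  obtain ⟨i, j, w, hw⟩ := iter M v
  refine ⟨i, j, ?_⟩
  rw [hw, hM, add_zero]

lemma four_form (v : V) : ∃ i : ℤ, (4 : ℕ) • v = i • ((4 : ℕ) • p) := by
  obtain ⟨i, j, rfl⟩ := gen C B v
  refine ⟨i, ?_⟩
  linear_combination (norm := module) j • B.hf4

/-- The other coordinates of `N` in `Q`. -/
lemma first_coord {ε : Q V ≃+ F2} (h₁ : ε (mkQ p) = (1, 0)) (h₂ : ε (mkQ f) = (0, 1)) (r : V) (hr : (4 : ℕ) • r = 0) :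
    (ε (mkQ r)).1 = 0 := by
  rcases coverQ C B (mkQ r) with h | h | h | h
  · rw [h, map_zero]
    rfl
  · exact absurd (mkQ_eq.1 h.symm) (B.hp r hr)
  · rw [h, h₂]
  · exfalso
    apply B.hp (r - f) (by rw [smul_sub, hr, B.hf4, sub_zero])
    have h1 : mkQ (p - (r - f)) = 0 := by
      rw [mkQ_sub C.hV2, mkQ_sub C.hV2, h, ← add_assoc]
      have e : mkQ p + (mkQ p + mkQ f) + mkQ f = (mkQ p + mkQ p) + (mkQ f + mkQ f) := by abel
      rw [e, Q_two, Q_two, add_zero]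
    exact mkQ_eq_zero.1 h1

/-- `S` fixes `f` on `Q`. -/
lemma ρ_f (g : S) : ρQ D g (mkQ f) = mkQ f := by
  have hf4' : (4 : ℕ) • D.ρ g f = 0 := by rw [← map_nsmul, B.hf4, map_zero]
  rw [ρQ_mk]
  rcases coverQ C B (mkQ (D.ρ g f)) with h | h | h | h
  · exfalso
    apply B.hf2
    have h1 := mkQ_eq_zero.1 h
    have h2 := D.inv_Dbl 2 g⁻¹ _ h1
    simpa using h2
  · exact absurd (mkQ_eq.1 h.symm) (B.hp _ hf4')
  · exact h
  · exfalso
    apply B.hp (D.ρ g f - f) (by rw [smul_sub, hf4', B.hf4, sub_zero])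
    have h1 : mkQ (p - (D.ρ g f - f)) = 0 := by
      rw [mkQ_sub C.hV2, mkQ_sub C.hV2, h]
      have e : mkQ p + (mkQ p + mkQ f + mkQ f) = (mkQ p + mkQ p) + (mkQ f + mkQ f) := by abel
      rw [e, Q_two, Q_two, add_zero]
    exact mkQ_eq_zero.1 h1

/-- `S` moves `p` on `Q` at most by `f`. -/
lemma ρ_p (g : S) : ρQ D g (mkQ p) = mkQ p ∨ ρQ D g (mkQ p) = mkQ p + mkQ f := by
  rw [ρQ_mk]
  rcases coverQ C B (mkQ (D.ρ g p)) with h | h | h | h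
  · exfalso
    apply mkQ_p_ne C B
    have h1 := mkQ_eq_zero.1 h
    have h2 := D.inv_Dbl 2 g⁻¹ _ h1
    apply mkQ_eq_zero.2
    simpa using h2
  · exact Or.inl h
  · exfalso
    have hf' : (4 : ℕ) • D.ρ g⁻¹ f = 0 := by rw [← map_nsmul, B.hf4, map_zero]
    apply B.hp _ hf'
    have h1 := mkQ_eq.1 h
    have h2 := D.inv_Dbl 2 g⁻¹ _ h1
    rw [map_sub] at h2
    simpa using h2
  · exact Or.inr h

/-- The element `N₀`: its values. -/
structure IsN0 (D : Mod S V) (p f : V) (x : S) : Prop where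
  h1 : NN D x (mkQ p) = mkQ f
  h2 : NN D x (mkQ f) = 0

omit C B in
omit [Finite S] in
lemma ext_cover {n m : Q V →+ Q V} (hcov : ∀ q : Q V, q = 0 ∨ q = mkQ p ∨ q = mkQ f ∨ q = mkQ p + mkQ f)
    (h1 : n (mkQ p) = m (mkQ p)) (h2 : n (mkQ f) = m (mkQ f)) : n = m := by
  apply AddMonoidHom.ext
  intro q
  rcases hcov q with rfl | rfl | rfl | rfl
  · simp
  · exact h1
  · exact h2
  · rw [map_add, map_add, h1, h2]

/-- `N₀` is invariant. -/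
lemma inv_N0 {x : S} (hx : x ∈ S1 D) (h0 : IsN0 D p f x) (g : S) : NN D (g * x * g⁻¹) = NN D x := by
  have hV2 := C.hV2
  have e2 : NN D (g * x * g⁻¹) (mkQ f) = 0 := by
    have h := NN_conj hV2 g hx (mkQ f)
    rw [ρ_f C B, h0.h2, map_zero] at h
    exact h
  have e1 : NN D (g * x * g⁻¹) (mkQ p) = mkQ f := by
    have h := NN_conj hV2 g hx (mkQ p)
    rw [h0.h1, ρ_f C B] at h
    rcases ρ_p C B g with h5 | h5
    · rw [h5] at h
      exact h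
    · rw [h5, map_add, e2, add_zero] at h
      exact h
  apply ext_cover (p := p) (f := f) (coverQ C B)
  · rw [e1, h0.h1]
  · rw [e2, h0.h2]

lemma hN_N0 {x : S} (h0 : IsN0 D p f x) (q : Q V) (h : NN D x q = q) : q = 0 := by
  have hne := mkQ_f_ne C B
  have hne2 := mkQ_p_ne_f C B
  rcases coverQ C B q with rfl | rfl | rfl | rfl
  · rfl
  · rw [h0.h1] at h
    exact absurd h.symm hne2
  · rw [h0.h2] at h
    exact absurd h.symm hne
  · rw [map_add, h0.h1, h0.h2, add_zero] at h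
    exfalso
    apply mkQ_p_ne C B
    have e : mkQ f + (mkQ p + mkQ f) = mkQ p := by
      have : mkQ f + (mkQ p + mkQ f) = mkQ p + (mkQ f + mkQ f) := by abel
      rw [this, Q_two, add_zero]
    rw [← e, ← h]
    exact Q_two _

lemma hN0_N0 {x : S} (h0 : IsN0 D p f x) : NN D x ≠ 0 := by
  intro h
  apply mkQ_f_ne C B
  rw [← h0.h1, h]
  rfl

/-- The covering for the descent. -/
lemma hcov_of_N {x : S} (hx : x ∈ S1 D) (hN : ∀ q, NN D x q = q → q = 0) (w : V) :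
    ∃ v u w', (2 : ℕ) • u = D.δ x v ∧ w = v + u + (2 : ℕ) • w' := by
  have hinj : Function.Injective (fun q : Q V => q + NN D x q) := by
    intro q q' h
    have h1 : NN D x (q + q') = q + q' := by
      rw [map_add]
      symm
      apply Q_eq_of_add C.hV2
      have e : q + q' + (NN D x q + NN D x q') = (q + NN D x q) + (q' + NN D x q') := by abel
      rw [e]
      simp only at h
      rw [h]
      exact Q_two _
    have h2 := hN _ h1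
    exact Q_eq_of_add C.hV2 h2
  have hsurj := Finite.injective_iff_surjective.1 hinj
  obtain ⟨q, hq⟩ := hsurj (mkQ w)
  obtain ⟨v, rfl⟩ := QuotientAddGroup.mk_surjective q
  obtain ⟨u, hu⟩ := mem_S1.1 hx v
  have hq' : mkQ v + NN D x (mkQ v) = mkQ w := hq
  rw [NN_spec C.hV2 hx hu, ← mkQ_add] at hq'
  obtain ⟨w', hw'⟩ := mkQ_eq.1 hq'.symm
  have hw'' : (2 : ℕ) • w' = w - (v + u) := hw'
  refine ⟨v, u, w', hu, ?_⟩
  rw [hw'']
  abel

omit C B in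
omit [Finite S] [Finite V] in
/-- The difference of the two composites. -/
lemma dd_eq (x y : S) (v : V) : D.δ x (D.δ y v) - D.δ y (D.δ x v) = D.ρ x (D.ρ y v) - D.ρ y (D.ρ x v) := by
  have h1 : D.ρ x (D.ρ y v) = v + D.δ y v + D.δ x v + D.δ x (D.δ y v) := by
    rw [D.ρ_eq y v, map_add, D.ρ_eq x v, D.ρ_eq x (D.δ y v)]
    abel
  have h2 : D.ρ y (D.ρ x v) = v + D.δ y v + D.δ x v + D.δ y (D.δ x v) := by
    rw [D.ρ_eq x v, map_add, D.ρ_eq y v, D.ρ_eq y (D.δ x v)]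
    abel
  rw [h1, h2]
  abel

omit C B in
omit [Finite S] [Finite V] in
/-- The commutator `x⁻¹ y⁻¹ x y`. -/
lemma δ_comm' (x y : S) (v : V) :
    D.δ (x⁻¹ * y⁻¹ * x * y) v = D.ρ (y * x)⁻¹ (D.δ x (D.δ y v) - D.δ y (D.δ x v)) := by
  rw [dd_eq, map_sub, δ_def]
  congr 1
  · simp only [D.ρ_mul, mul_inv_rev]
  · rw [← D.ρ_mul y x, D.ρ_inv_ρ]

omit C B in
omit [Finite S] [Finite V] in
/-- The double difference in terms of the pair. -/
lemma dd_gen (x y : S) {i j : ℤ} : D.δ x (D.δ y (i • p + j • f)) - D.δ y (D.δ x (i • p + j • f)) =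
    i • (D.δ x (D.δ y p) - D.δ y (D.δ x p)) + j • (D.δ x (D.δ y f) - D.δ y (D.δ x f)) := by
  simp only [D.δ_add, δ_zsmul]
  module

/-- Elements of `P₂` in coordinates. -/
lemma P2_form {y : S} (hy : y ∈ P2 D) : ∃ A Cc : ℤ, D.δ y p = A • ((4 : ℕ) • p) ∧ D.δ y f = Cc • ((4 : ℕ) • p) := by
  obtain ⟨w, hw⟩ := mem_P2.1 hy p
  obtain ⟨w', hw'⟩ := mem_P2.1 hy f
  obtain ⟨A, hA⟩ := four_form C B w
  obtain ⟨Cc, hCc⟩ := four_form C B w'
  exact ⟨A, Cc, by rw [← hw, hA], by rw [← hw', hCc]⟩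

/-- Elements with `N = N₀` in coordinates. -/
lemma N0_form {x : S} (hx : x ∈ S1 D) (h0 : IsN0 D p f x) :
    ∃ α β : ℤ, D.δ x p = (2 : ℕ) • f + α • ((4 : ℕ) • p) ∧ D.δ x f = β • ((4 : ℕ) • p) := by
  have hV2 := C.hV2
  obtain ⟨u, hu⟩ := mem_S1.1 hx p
  obtain ⟨u', hu'⟩ := mem_S1.1 hx f
  have h1 := NN_spec hV2 hx hu
  have h2 := NN_spec hV2 hx hu'
  rw [h0.h1] at h1
  rw [h0.h2] at h2
  obtain ⟨w, hw⟩ := mkQ_eq.1 h1.symm
  obtain ⟨w', hw'⟩ := mkQ_eq_zero.1 h2.symm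
  have hw₁ : (2 : ℕ) • w = u - f := hw
  have hw₂ : (2 : ℕ) • w' = u' := hw'
  obtain ⟨α, hα⟩ := four_form C B w
  obtain ⟨β, hβ⟩ := four_form C B w'
  refine ⟨α, β, ?_, ?_⟩
  · rw [← hα, ← hu]
    have e : u = f + (2 : ℕ) • w := by rw [hw₁]; abel
    rw [e, smul_add, ← mul_nsmul']
  · rw [← hβ, ← hu', ← hw₂, ← mul_nsmul']

omit C B in
omit [Finite S] [Finite V] in
lemma four_δ (h : (4 : ℕ) • f = 0) (x : S) : (4 : ℕ) • D.δ x f = 0 := by
  rw [← D.δ_nsmul, h, D.δ_zero]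

/-- `[δ_x, δ_y]` at `f`. -/
lemma dd_N0_f {x y : S} (hx : x ∈ S1 D) (h0 : IsN0 D p f x) (hy : y ∈ P2 D) :
    D.δ x (D.δ y f) - D.δ y (D.δ x f) = 0 := by
  obtain ⟨α, β, h1, h2⟩ := N0_form C B hx h0
  obtain ⟨A, Cc, h3, h4⟩ := P2_form C B hy
  have hC := four_δ (D := D) B.hf4 y
  have hβ := four_δ (D := D) B.hf4 x
  rw [h4] at hC
  rw [h2] at hβ
  rw [h2, h4, δ_zsmul, δ_zsmul, D.δ_nsmul, D.δ_nsmul, h1, h3]
  linear_combination (norm := module) (2 * Cc) • B.hf4 + α • hC - A • hβ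

/-- `[δ_x, δ_y]` at `p`. -/
lemma dd_N0_p {x y : S} (hx : x ∈ S1 D) (h0 : IsN0 D p f x) (hy : y ∈ P2 D) :
    D.δ x (D.δ y p) - D.δ y (D.δ x p) = - ((2 : ℕ) • D.δ y f) := by
  obtain ⟨α, β, h1, h2⟩ := N0_form C B hx h0
  obtain ⟨A, Cc, h3, h4⟩ := P2_form C B hy
  rw [h1, h3, D.δ_add, D.δ_nsmul, δ_zsmul, δ_zsmul, D.δ_nsmul, D.δ_nsmul, h1, h3]
  linear_combination (norm := module) (2 * A) • B.hf4

/-- `P₂ / B` is abelian. -/
lemma comm_P2 {y y' : S} (hy : y ∈ P2 D) (hy' : y' ∈ P2 D) : y * y' * y⁻¹ * y'⁻¹ ∈ D.B := by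
  obtain ⟨A, Cc, h3, h4⟩ := P2_form C B hy
  obtain ⟨A', Cc', h3', h4'⟩ := P2_form C B hy'
  have hC := four_δ (D := D) B.hf4 y
  have hC' := four_δ (D := D) B.hf4 y'
  rw [h4] at hC
  rw [h4'] at hC'
  have hp : D.δ y (D.δ y' p) - D.δ y' (D.δ y p) = 0 := by
    rw [h3, h3', δ_zsmul, δ_zsmul, D.δ_nsmul, D.δ_nsmul, h3, h3']
    module
  have hf : D.δ y (D.δ y' f) - D.δ y' (D.δ y f) = 0 := by
    rw [h4, h4', δ_zsmul, δ_zsmul, D.δ_nsmul, D.δ_nsmul, h3, h3']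
    linear_combination (norm := module) A • hC' - A' • hC
  rw [D.mem_B_iff]
  intro v
  obtain ⟨w, hw⟩ := exists_ρ_inv (D := D) y y' v
  have h1 := δ_comm hw
  obtain ⟨i, j, rfl⟩ := gen C B w
  rw [dd_gen, hp, hf, smul_zero, smul_zero, add_zero, δ_def, sub_eq_zero] at h1
  exact h1

/-- The commutator with an element with `N = N₀`. -/
lemma comm_N0_P3 {x y : S} (hx : x ∈ S1 D) (h0 : IsN0 D p f x) (hy : y ∈ P2 D) : x⁻¹ * y⁻¹ * x * y ∈ P3 D := by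
  refine mem_P3.2 (fun v => ?_)
  rw [δ_comm']
  obtain ⟨i, j, rfl⟩ := gen C B v
  rw [dd_gen, dd_N0_p C B hx h0 hy, dd_N0_f C B hx h0 hy, smul_zero, add_zero]
  obtain ⟨A, Cc, h3, h4⟩ := P2_form C B hy
  rw [h4]
  refine ⟨D.ρ (y * x)⁻¹ ((-(i * Cc)) • p), ?_⟩
  rw [← map_nsmul]
  congr 1
  module

lemma comm_N0_f {x y : S} (hx : x ∈ S1 D) (h0 : IsN0 D p f x) (hy : y ∈ P2 D) : D.δ (x⁻¹ * y⁻¹ * x * y) f = 0 := by
  rw [δ_comm', dd_N0_f C B hx h0 hy, map_zero]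

lemma comm_N0_B {x y : S} (hx : x ∈ S1 D) (h0 : IsN0 D p f x) (hy : y ∈ P2 D) (h2 : (2 : ℕ) • D.δ y f = 0) :
    x⁻¹ * y⁻¹ * x * y ∈ D.B := by
  rw [D.mem_B_iff]
  intro v
  have h := δ_comm' (D := D) x y v
  obtain ⟨i, j, rfl⟩ := gen C B v
  rw [dd_gen, dd_N0_p C B hx h0 hy, dd_N0_f C B hx h0 hy, h2, neg_zero, smul_zero, smul_zero, add_zero, map_zero,
    δ_def, sub_eq_zero] at h
  exact h

/-- The square of an element of `P₂` on `f`. -/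
lemma δ_sq_f {y : S} (hy : y ∈ P2 D) : D.δ (y * y) f = (2 : ℕ) • D.δ y f := by
  obtain ⟨A, Cc, h3, h4⟩ := P2_form C B hy
  have hC := four_δ (D := D) B.hf4 y
  rw [h4] at hC
  rw [δ_sq, h4, δ_zsmul, D.δ_nsmul, h3]
  linear_combination (norm := module) A • hC

/-- The images of `P₂` commute modulo `B`. -/
lemma comm_pi {y y' : S} (hy : y ∈ P2 D) (hy' : y' ∈ P2 D) :
    (QuotientGroup.mk y : S ⧸ D.B) * QuotientGroup.mk y' = QuotientGroup.mk y' * QuotientGroup.mk y := by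
  have h := comm_P2 C B hy hy'
  have h1 : (QuotientGroup.mk (y * y' * y⁻¹ * y'⁻¹) : S ⧸ D.B) = 1 := (QuotientGroup.eq_one_iff _).2 h
  simp only [QuotientGroup.mk_mul, QuotientGroup.mk_inv] at h1
  have h2 := mul_inv_eq_one.1 h1
  have h3 := mul_inv_eq_iff_eq_mul.1 h2
  exact h3

/-- The subgroup of `K` made of squares of `H ∩ P₂` modulo `B`. -/
def JJ (C : Ctx D) (B : BData V p f) (H K : Subgroup S) : Subgroup S where
  carrier := {z | z ∈ K ∧ ∃ y ∈ H ⊓ P2 D, (QuotientGroup.mk z : S ⧸ D.B) = QuotientGroup.mk (y * y)}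
  mul_mem' := by
    rintro z z' ⟨hz, y, hy, he⟩ ⟨hz', y', hy', he'⟩
    refine ⟨K.mul_mem hz hz', y * y', (H ⊓ P2 D).mul_mem hy hy', ?_⟩
    rw [QuotientGroup.mk_mul, he, he']
    simp only [QuotientGroup.mk_mul]
    have hcm := comm_pi C B hy.2 hy'.2
    calc (QuotientGroup.mk y : S ⧸ D.B) * QuotientGroup.mk y * (QuotientGroup.mk y' * QuotientGroup.mk y')
        = QuotientGroup.mk y * (QuotientGroup.mk y * QuotientGroup.mk y') * QuotientGroup.mk y' := by group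
      _ = QuotientGroup.mk y * (QuotientGroup.mk y' * QuotientGroup.mk y) * QuotientGroup.mk y' := by rw [hcm]
      _ = _ := by group
  one_mem' := ⟨K.one_mem, 1, (H ⊓ P2 D).one_mem, by simp⟩
  inv_mem' := by
    rintro z ⟨hz, y, hy, he⟩
    refine ⟨K.inv_mem hz, y⁻¹, (H ⊓ P2 D).inv_mem hy, ?_⟩
    rw [QuotientGroup.mk_inv, he]
    simp only [QuotientGroup.mk_mul, QuotientGroup.mk_inv]
    group

/-- **The saving for `N₀`.** -/
theorem Lg {H K : Subgroup S} (hKH : K ≤ H) (hc : ∀ x ∈ H, ∀ y ∈ H, x * y * x⁻¹ * y⁻¹ ∈ K) (hs : ∀ x ∈ H, x * x ∈ K)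
    {x : S} (hx : x ∈ H ⊓ S1 D) (h0 : IsN0 D p f x) : K.relIndex (H ⊓ P2 D) ≤ 2 := by
  have hV2 := C.hV2
  have hF0 := F0_le4 C hKH hs
  by_cases hJ : K ⊓ P3 D ≤ JJ C B H K
  · -- an element of `T` with `N = N₀`
    have hNzero : ∀ y ∈ P2 D, NN D y = 0 := fun y hy => (NN_eq_zero_iff hV2 (P2_le_S1 hy)).2 hy
    have hIs : ∀ {u y : S}, u ∈ S1 D → IsN0 D p f u → y ∈ P2 D → IsN0 D p f (u * y⁻¹) := by
      intro u y hu h0u hy
      have h1 : NN D (u * y⁻¹) = NN D u := by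
        rw [NN_mul hV2 hu (P2_le_S1 ((P2 D).inv_mem hy)), hNzero _ ((P2 D).inv_mem hy), add_zero]
      exact ⟨by rw [h1]; exact h0u.h1, by rw [h1]; exact h0u.h2⟩
    have hx2 : x * x ∈ P3 D := by
      apply sq_mem_P3_of hV2 hx.2
      intro q
      rcases coverQ C B q with rfl | rfl | rfl | rfl
      · exact ⟨0, by simp, by simp [qN]⟩
      · exact ⟨f, B.hf4, by rw [qN_apply, h0.h1, h0.h2, add_zero]⟩
      · exact ⟨0, by simp, by rw [qN_apply, h0.h2, map_zero, add_zero]; rfl⟩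
      · exact ⟨f, B.hf4, by rw [qN_apply, map_add, h0.h1, h0.h2, add_zero, h0.h2, add_zero]⟩
    obtain ⟨-, y, hy, he⟩ := hJ ⟨hs x hx.1, hx2⟩
    have hyi := (P2 D).inv_mem hy.2
    have hxi : x⁻¹ ∈ H := H.inv_mem hx.1
    have hκK : x⁻¹ * y⁻¹ * x * y ∈ K := by
      have := hc x⁻¹ hxi y⁻¹ (H.inv_mem hy.1)
      simpa using this
    have hκP3 := comm_N0_P3 C B hx.2 h0 hy.2
    obtain ⟨-, y₁, hy₁, he₁⟩ := hJ ⟨hκK, hκP3⟩
    -- the square of `u`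
    have hu1 : x * y⁻¹ ∈ S1 D := (S1 D).mul_mem hx.2 (P2_le_S1 hyi)
    have hu0 : IsN0 D p f (x * y⁻¹) := hIs hx.2 h0 hy.2
    have e1 : (x * y⁻¹) * (x * y⁻¹) = x * x * (x⁻¹ * y⁻¹ * x * y) * (y * y)⁻¹ := by group
    have hpu : (QuotientGroup.mk ((x * y⁻¹) * (x * y⁻¹)) : S ⧸ D.B) = QuotientGroup.mk (y₁ * y₁) := by
      rw [e1, QuotientGroup.mk_mul, QuotientGroup.mk_mul, he, he₁.symm, QuotientGroup.mk_inv]
      have hcm := comm_pi C B ((P2 D).mul_mem hy.2 hy.2) (P3_le_P2 hκP3)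
      rw [hcm]
      group
    -- `y₁` is small on `f`
    have h2y₁ : (2 : ℕ) • D.δ y₁ f = 0 := by
      rw [← δ_sq_f C B hy₁.2]
      have h3 := QuotientGroup.eq.1 he₁
      obtain ⟨b, hb⟩ := D.mem_B.1 h3
      have h4 : y₁ * y₁ = (x⁻¹ * y⁻¹ * x * y) * D.ι b := by
        rw [← hb]
        group
      have h5 : D.δ (D.ι b) f = 0 := by simp [δ]
      rw [h4, D.δ_mul, h5, map_zero, zero_add]
      exact comm_N0_f C B hx.2 h0 hy.2
    have hκ₁ := comm_N0_B C B hu1 hu0 hy₁.2 h2y₁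
    have e2 : (x * y⁻¹ * y₁⁻¹) * (x * y⁻¹ * y₁⁻¹) =
        (x * y⁻¹) * (x * y⁻¹) * ((x * y⁻¹)⁻¹ * y₁⁻¹ * (x * y⁻¹) * y₁) * (y₁ * y₁)⁻¹ := by group
    have hsq : (x * y⁻¹ * y₁⁻¹) * (x * y⁻¹ * y₁⁻¹) ∈ D.B := by
      rw [← QuotientGroup.eq_one_iff, e2, QuotientGroup.mk_mul, QuotientGroup.mk_mul, hpu,
        (QuotientGroup.eq_one_iff _).2 hκ₁, QuotientGroup.mk_inv]
      group
    have hu'1 : x * y⁻¹ * y₁⁻¹ ∈ S1 D := (S1 D).mul_mem hu1 (P2_le_S1 ((P2 D).inv_mem hy₁.2))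
    have hu'0 : IsN0 D p f (x * y⁻¹ * y₁⁻¹) := hIs hu1 hu0 hy₁.2
    obtain ⟨M, hM⟩ := exists_exp D C.hS
    have hT' : x * y⁻¹ * y₁⁻¹ ∈ T D := by
      rw [← Ann_one_eq]
      refine mem_Ann_of_sq hM (j := 0) ?_ (hcov_of_N C B hu'1 (hN_N0 C B hu'0))
      rw [Ann_zero_eq]
      exact hsq
    have hu'H : x * y⁻¹ * y₁⁻¹ ∈ H := H.mul_mem (H.mul_mem hx.1 (H.inv_mem hy.1)) (H.inv_mem hy₁.1)
    exact s_le2_of_T C hKH hs hu'H hT' (hN_N0 C B hu'0) (hN0_N0 C B hu'0) (inv_N0 C B hu'1 hu'0)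
  · have hJle : JJ C B H K ≤ K ⊓ P3 D := by
      rintro z ⟨hz, y, hy, he⟩
      refine ⟨hz, ?_⟩
      have h1 := QuotientGroup.eq.1 he.symm
      have h2 : z = y * y * ((y * y)⁻¹ * z) := by group
      rw [h2]
      exact (P3 D).mul_mem (sq_P2_mem_P3 hy.2) (B_le_P3 h1)
    have h1 := chain_le C (K' := JJ C B H K) (K := K) (H := H)
      (fun z hz => ⟨hz.2, 1, (H ⊓ P2 D).one_mem, by
        rw [mul_one, QuotientGroup.mk_one]
        exact (QuotientGroup.eq_one_iff _).2 hz.1⟩) hKH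
      (fun y hy => ⟨hs y hy.1, y, hy, rfl⟩)
    have h2 := two_le_r hJ
    have h3 : K ⊓ P3 D ≤ H ⊓ P2 D := le_inf (inf_le_left.trans hKH) (inf_le_right.trans P3_le_P2)
    have h4 := Subgroup.relIndex_mul_relIndex _ _ _ hJle h3
    have h5 : (K ⊓ P3 D).relIndex (H ⊓ P2 D) ≤ 2 := by
      by_contra h6
      push Not at h6
      have : 2 * 3 ≤ (JJ C B H K).relIndex (K ⊓ P3 D) * (K ⊓ P3 D).relIndex (H ⊓ P2 D) := Nat.mul_le_mul h2 h6
      omega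
    have h6 := Subgroup.relIndex_dvd_of_le_left (H ⊓ P2 D) (inf_le_left : K ⊓ P3 D ≤ K)
    exact (Nat.le_of_dvd (relIndex_pos' _ _) h6).trans h5

/-- **The remaining case.** -/
theorem secBd_B : SecBd 4 S := by
  have hV2 := C.hV2
  obtain ⟨ε, hε₁, hε₂⟩ := exists_ε_of C (mkQ_p_ne C B) (mkQ_f_ne C B) (mkQ_p_ne_f C B)
  have L1 := first_coord C B hε₁ hε₂
  have hs₁ : ε.symm (1, 0) = mkQ p := by rw [AddEquiv.symm_apply_eq, hε₁]
  have hs₂ : ε.symm (0, 1) = mkQ f := by rw [AddEquiv.symm_apply_eq, hε₂]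
  refine secBd_of_Sav (C := C) ⟨?_, ?_, ?_⟩
  · intro H K hKH hc hs h4
    refine s2_AB C ε L1 (fun hKH' hc' hs' x hx he => ?_) hKH hc hs h4
    refine Lg C B hKH' hc' hs' hx ⟨?_, ?_⟩
    · have h1 := congrArg Prod.fst he
      simp only [mat, hs₁, E21] at h1
      rw [← hs₂]
      exact (AddEquiv.eq_symm_apply ε).2 h1
    · have h1 := congrArg Prod.snd he
      simp only [mat, hs₂, E21] at h1
      exact ε.map_eq_zero_iff.1 h1
  · intro H K hKH hc hs h8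
    exact s1_AB C ε L1 hKH hs h8
  · intro H K hKH hc hs τ hτ x hx hN
    refine Lg C B hKH hc hs hx ⟨?_, ?_⟩
    · rw [hN]
      rcases ρ_p C B τ with h | h
      · exfalso
        apply hτ
        refine mem_S1_iff_Q.2 (fun q => ?_)
        have h5 := ρ_f C B τ
        rcases coverQ C B q with rfl | rfl | rfl | rfl
        · exact map_zero _
        · exact h
        · exact h5
        · rw [map_add, h, h5]
      · rw [h]
        have e : mkQ p + mkQ f + mkQ p = (mkQ p + mkQ p) + mkQ f := by abel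
        rw [e, Q_two, zero_add]
    · rw [hN, ρ_f C B τ]
      exact Q_two _

end Cfsg.Agent.Lib.MacW.CaseB
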