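import Cfsg.Agent.Lib.MacW.CaseAB

/-!
# The case `4V = 0`
-/

set_option autoImplicit false
set_option linter.unusedSectionVars false

namespace Cfsg.Agent.Lib.MacW.CaseC

open Cfsg.Agent.Lib.TwoFusion.SecRank Cfsg.Agent.Lib.SelfCentE8.Setup Cfsg.Agent.Lib.SelfCentE8.Count
open Cfsg.Agent.Lib.SelfCentE8.TCore Cfsg.Agent.Lib.SelfCentE8.TCount Cfsg.Agent.Lib.SelfCentE8.Gamma
open Cfsg.Agent.Lib.SelfCentE8.N1
open Cfsg.Agent.Lib.MacW.Basic Cfsg.Agent.Lib.MacW.Chain Cfsg.Agent.Lib.MacW.Sigma Cfsg.Agent.Lib.MacW.Core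
open Cfsg.Agent.Lib.MacW.Level2 Cfsg.Agent.Lib.MacW.Finite Cfsg.Agent.Lib.MacW.Assembly
open Mod

variable {S V : Type*} [Group S] [AddCommGroup V] {D : Mod S V} [Finite V] [Finite S] (C : Ctx D)

/-- Conjugation is trivial on `N` when `S` acts trivially on `Q`. -/
lemma inv_of_S1 (hS1 : ∀ g : S, g ∈ S1 D) (hV2 : ∀ w : V, (2 : ℕ) • w = 0 → w ∈ (Dbl 2 : AddSubgroup V)) {x : S}
    (g : S) : NN D (g * x * g⁻¹) = NN D x := by
  apply AddMonoidHom.ext
  intro q
  have h := NN_conj hV2 g (hS1 x) q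
  have h1 : ∀ q, ρQ D g q = q := mem_S1_iff_Q.1 (hS1 g)
  rwa [h1, h1] at h

include C

/-- If `N x = η`, then `N` is constant on the conjugates of `x`. -/
lemma inv_of_eta {τ : S} (hτ : τ ∉ S1 D) {x : S} (hx : x ∈ S1 D) (hN : NN D x = ηh D τ) (g : S) :
    NN D (g * x * g⁻¹) = NN D x := by
  have hV2 := C.hV2
  by_cases hg : g ∈ S1 D
  · apply AddMonoidHom.ext
    intro q
    have h := NN_conj hV2 g hx q
    have h1 : ∀ q, ρQ D g q = q := mem_S1_iff_Q.1 hg
    rwa [h1, h1] at h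
  · -- `g` acts like `τ`
    have hρ : ∀ q, ρQ D g q = ρQ D τ q := by
      have hi := index_S1_le (D := D) C.hS C.hW
      have h2 : (S1 D).index = 2 := by
        have h0 : (S1 D).index ≠ 0 := Subgroup.index_ne_zero_of_finite
        have h1 : (S1 D).index ≠ 1 := by
          intro h
          rw [Subgroup.index_eq_one] at h
          exact hτ (h ▸ Subgroup.mem_top τ)
        omega
      have h3 : τ⁻¹ * g ∈ S1 D := by
        have := Subgroup.mul_mem_iff_of_index_two h2 (a := τ⁻¹) (b := g)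
        rw [this]
        constructor
        · intro h4
          exact absurd ((S1 D).inv_mem_iff.1 h4) hτ
        · intro h4
          exact absurd h4 hg
      intro q
      have h4 := mem_S1_iff_Q.1 h3 q
      rw [ρQ_mul] at h4
      have h5 := congrArg (ρQ D τ) h4
      rw [← ρQ_mul, mul_inv_cancel, ρQ_one] at h5
      exact h5
    apply AddMonoidHom.ext
    intro q
    have h := NN_conj hV2 g hx (ρQ D g q)
    have hρρ : ρQ D g (ρQ D g q) = q := by rw [hρ, hρ, ρQ_sq C hτ]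
    calc NN D (g * x * g⁻¹) q = ρQ D g (NN D x (ρQ D g q)) := by rw [← h, hρρ]
      _ = ρQ D τ (ηh D τ (ρQ D τ q)) := by rw [hρ, hρ, hN]
      _ = ρQ D τ (ρQ D τ (ρQ D τ q) + ρQ D τ q) := by rw [ηh_apply]
      _ = ρQ D τ (q + ρQ D τ q) := by rw [ρQ_sq C hτ]
      _ = ρQ D τ q + q := by rw [map_add, ρQ_sq C hτ]
      _ = NN D x q := by rw [hN, ηh_apply]

lemma hN_eta {τ : S} (hτ : τ ∉ S1 D) {x : S} (hN : NN D x = ηh D τ) (q : Q V) (h : NN D x q = q) : q = 0 := by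
  rw [hN] at h
  have h1 := ηh_sq C hτ q
  rwa [h, h] at h1

lemma hN0_eta {τ : S} (hτ : τ ∉ S1 D) {x : S} (hN : NN D x = ηh D τ) : NN D x ≠ 0 := by
  obtain ⟨e₁, he₁⟩ := exists_ηh_ne C hτ
  intro h0
  apply he₁
  rw [← hN, h0]
  rfl

section four
variable (h4V : ∀ v : V, (4 : ℕ) • v = 0)
include h4V

lemma S1_le_T {x : S} (hx : x ∈ S1 D) : x ∈ T D := by
  refine mem_T.2 (fun v => ?_)
  obtain ⟨u, hu⟩ := mem_S1.1 hx v
  rw [← hu, ← mul_nsmul']
  exact h4V u

end four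

omit C in
lemma sigma_one_ne {b : V} (hn : mkQ b ≠ mkQ (0 : V)) : mkQ b ≠ 0 := hn

/-- The contradiction when `S = S₁`. -/
lemma false_of_omega₁ (hS1 : ∀ g : S, g ∈ S1 D) {t : S} (ht : t ∈ T D) (hN : ∀ q, NN D t q = q → q = 0)
    (hN' : ∀ q, NN D t q = 0 → q = 0) (hN0 : NN D t ≠ 0) : False := by
  obtain ⟨b, hb⟩ := T_sq C.hV2 ht
  have h1 := sigma_ne C ht hN hN0 (inv_of_S1 hS1 C.hV2) hb (W D).one_mem (b' := 0) (by simp)
  exact h1 (by
    have := hN' _ (R1Q C.hV2 ht hb)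
    rw [this]
    rfl)

/-- The contradiction when `S ≠ S₁`. -/
lemma false_of_omega₂ {τ : S} (hτ : τ ∉ S1 D) {t₁ t₂ : S} (ht₁ : t₁ ∈ T D) (ht₂ : t₂ ∈ T D) (hN₁ : NN D t₁ = ηh D τ)
    (hN : ∀ q, NN D t₂ q = q → q = 0) (hN' : ∀ q, NN D t₂ q = 0 → q = 0) : False := by
  have hV2 := C.hV2
  obtain ⟨b₁, hb₁⟩ := T_sq hV2 ht₁
  obtain ⟨b₂, hb₂⟩ := T_sq hV2 ht₂
  have h1 := sigma_ne C ht₁ (hN_eta C hτ hN₁) (hN0_eta C hτ hN₁) (inv_of_eta C hτ (T_le_S1 hV2 ht₁) hN₁) hb₁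
    (W D).one_mem (b' := 0) (by simp)
  have h2 : mkQ b₂ = 0 := hN' _ (R1Q hV2 ht₂ hb₂)
  obtain ⟨c, hc⟩ := T_comm hV2 ht₁ ht₂
  have h3 := R2Q hV2 ht₁ ht₂ hc hb₂
  rw [h2, map_zero] at h3
  have h4 : mkQ c = 0 := hN _ (Q_eq_of_add hV2 h3).symm
  have h5 := sq_mul hc hb₁ hb₂
  have h6 := R1Q hV2 ((T D).mul_mem ht₁ ht₂) h5
  rw [sq_mulQ hV2 ht₁, h2, h4, add_zero, add_zero, NN_mul hV2 (T_le_S1 hV2 ht₁) (T_le_S1 hV2 ht₂),
    AddMonoidHom.add_apply, R1Q hV2 ht₁ hb₁, zero_add] at h6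
  exact h1 ((hN' _ h6))

omit C [Finite S] [Finite V] in
lemma two_mul_card_le {E : Type*} [AddCommGroup E] [Finite E] {A B : AddSubgroup E} (hlt : A < B) :
    2 * Nat.card A ≤ Nat.card B := by
  have hd : Nat.card A ∣ Nat.card B := AddSubgroup.card_dvd_of_le hlt.le
  obtain ⟨m, hm⟩ := hd
  have hcardlt : Nat.card A < Nat.card B := by
    have h3 : (A : Set E) ⊂ B := SetLike.coe_ssubset_coe.mpr hlt
    have := Set.ncard_lt_ncard h3 (Set.toFinite _)
    rwa [← Nat.card_coe_set_eq, ← Nat.card_coe_set_eq] at this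
  have hp : 0 < Nat.card A := Nat.card_pos
  have hm2 : 2 ≤ m := by
    by_contra h
    have : m ≤ 1 := by omega
    have h5 : Nat.card B ≤ Nat.card A * 1 := by
      rw [hm]
      exact Nat.mul_le_mul_left _ this
    omega
  rw [hm, mul_comm]
  exact Nat.mul_le_mul_left _ hm2

omit C [Finite S] [Finite V] in
lemma omega_check : ∀ x : F2, app ((0, 1), (1, 1)) x = x → x = 0 := by decide

omit C [Finite S] [Finite V] in
lemma omega_check' : ∀ x : F2, app ((0, 1), (1, 1)) x = 0 → x = 0 := by decide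

omit C [Finite S] [Finite V] in
lemma omega_props {Q' : Type*} [AddCommGroup Q'] (ε : Q' ≃+ F2) {n : Q' →+ Q'} (hn : mat ε n = ((0, 1), (1, 1))) :
    (∀ q, n q = q → q = 0) ∧ (∀ q, n q = 0 → q = 0) := by
  constructor
  · intro q h
    have h1 := ε_app ε n q
    rw [h, hn] at h1
    have h2 := omega_check _ h1.symm
    exact ε.map_eq_zero_iff.1 h2
  · intro q h
    have h1 := ε_app ε n q
    rw [h, hn, map_zero] at h1
    have h2 := omega_check' _ h1.symm
    exact ε.map_eq_zero_iff.1 h2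

/-- **The case `4V = 0`.** -/
theorem secBd_C (h4V : ∀ v : V, (4 : ℕ) • v = 0) : SecBd 4 S := by
  have hV2 := C.hV2
  have hT := fun {x : S} (hx : x ∈ S1 D) => S1_le_T C h4V hx
  refine secBd_of_Sav (C := C) ⟨?_, ?_, ?_⟩
  · intro H K hKH hc hs h4
    by_cases hS1 : ∀ g : S, g ∈ S1 D
    · obtain ⟨ε⟩ := exists_ε C
      obtain ⟨n, ⟨x, hx, rfl⟩, hP⟩ := exists_of_check ε fin_C (Abar C H) h4
      simp only [PC, Bool.and_eq_true, decide_eq_true_eq] at hP
      refine s_le2_of_T C hKH hs hx.1 (hT hx.2) ?_ ?_ (inv_of_S1 hS1 hV2)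
      · intro q h
        have h1 := ε_app ε (NN D x) q
        rw [h] at h1
        exact ε.map_eq_zero_iff.1 (inj_of_det _ hP.2 _ h1.symm)
      · intro h0
        apply hP.1
        rw [h0, mat_zero]
    · push Not at hS1
      obtain ⟨τ, hτ⟩ := hS1
      obtain ⟨e₁, he₁⟩ := exists_ηh_ne C hτ
      have h1 : e₁ ≠ 0 := by
        rintro rfl
        exact he₁ (map_zero _)
      have hηη := ηh_sq C hτ e₁
      have h3 : e₁ ≠ ηh D τ e₁ := by
        intro h
        apply he₁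
        rwa [← h] at hηη
      obtain ⟨ε, hε₁, hε₂⟩ := exists_ε_of C h1 he₁ h3
      have hs₁ : ε.symm (1, 0) = e₁ := by rw [AddEquiv.symm_apply_eq, hε₁]
      have hs₂ : ε.symm (0, 1) = ηh D τ e₁ := by rw [AddEquiv.symm_apply_eq, hε₂]
      have hmη : mat ε (ηh D τ) = E21 := by
        simp only [mat, hs₁, hs₂, hηη, hε₂, map_zero]
        rfl
      have hρη : ∀ q, ρQ D τ q = ηh D τ q + q := by
        intro q
        rw [ηh_apply, add_assoc, Q_two, add_zero]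
      have hmτ : mat ε (ρQ D τ) = tauM := by
        simp only [mat, hs₁, hs₂, hρη, hηη, zero_add, map_add, hε₁, hε₂]
        rfl
      have hsav : ∀ x ∈ H ⊓ S1 D, NN D x = ηh D τ → K.relIndex (H ⊓ P2 D) ≤ 2 := by
        intro x hx hN
        exact s_le2_of_T C hKH hs hx.1 (hT hx.2) (hN_eta C hτ hN) (hN0_eta C hτ hN) (inv_of_eta C hτ hx.2 hN)
      obtain ⟨n, ⟨x, hx, rfl⟩, hP⟩ := exists_of_check ε fin_C2 (Abar C H) h4
      simp only [PC2, Bool.or_eq_true, decide_eq_true_eq] at hP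
      rcases hP with hP | hP
      · exact hsav x hx (mat_inj ε (hP.trans hmη.symm))
      · -- a commutator gives `η` in `T`
        have hz : (τ * x⁻¹ * τ⁻¹) ∈ S1 D :=
          (inferInstance : (S1 D).Normal).conj_mem _ ((S1 D).inv_mem hx.2) τ
        have hcj : NN D (τ * x⁻¹ * τ⁻¹) = ((ρQ D τ).comp (NN D x)).comp (ρQ D τ) := by
          apply AddMonoidHom.ext
          intro q
          have h2 := NN_conj hV2 τ ((S1 D).inv_mem hx.2) (ρQ D τ q)
          rw [ρQ_sq C hτ, NN_inv hV2 hx.2] at h2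
          exact h2
        have hu : NN D (x * (τ * x⁻¹ * τ⁻¹)) = ηh D τ := by
          apply mat_inj ε
          rw [NN_mul hV2 hx.2 hz, hcj, mat_add, mat_comp, mat_comp, hmτ, hmη]
          exact hP
        by_cases hη : ηh D τ ∈ Abar C H
        · obtain ⟨x', hx', he⟩ := hη
          exact hsav x' hx' he
        · exfalso
          have hle : Abar C H ≤ Abar C ⊤ := by
            rintro _ ⟨y, hy, rfl⟩
            exact ⟨y, ⟨trivial, hy.2⟩, rfl⟩
          have huT : ηh D τ ∈ Abar C ⊤ := ⟨_, ⟨trivial, (S1 D).mul_mem hx.2 hz⟩, hu⟩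
          have hlt : Abar C H < Abar C ⊤ := lt_of_le_of_ne hle (fun h => hη (h ▸ huT))
          haveI := finite_End ε
          have h2c := two_mul_card_le hlt
          have hTop : Abar C ⊤ = ⊤ := eq_top_of_lt _ (card_End ε) (by omega)
          obtain ⟨n, hn⟩ := mat_surj ε ((0, 1), (1, 1))
          have hmem : n ∈ Abar C ⊤ := by
            rw [hTop]
            exact AddSubgroup.mem_top n
          obtain ⟨y, hy, rfl⟩ := hmem
          obtain ⟨p1, p2⟩ := omega_props ε hn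
          exact false_of_omega₂ C hτ (hT ((S1 D).mul_mem hx.2 hz)) (hT hy.2) hu p1 p2
  · intro H K hKH hc hs h8
    exfalso
    obtain ⟨ε⟩ := exists_ε C
    haveI := finite_End ε
    have hTop : Abar C H = ⊤ := eq_top_of_lt _ (card_End ε) h8
    have hex : ∀ n : Q V →+ Q V, ∃ x ∈ S1 D, NN D x = n := by
      intro n
      have hmem : n ∈ Abar C H := by
        rw [hTop]
        exact AddSubgroup.mem_top n
      obtain ⟨y, hy, rfl⟩ := hmem
      exact ⟨y, hy.2, rfl⟩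
    obtain ⟨n, hn⟩ := mat_surj ε ((0, 1), (1, 1))
    obtain ⟨y, hy, rfl⟩ := hex n
    obtain ⟨p1, p2⟩ := omega_props ε hn
    by_cases hS1 : ∀ g : S, g ∈ S1 D
    · refine false_of_omega₁ C hS1 (hT hy) p1 p2 (fun h0 => ?_)
      rw [h0, mat_zero] at hn
      revert hn
      decide
    · push Not at hS1
      obtain ⟨τ, hτ⟩ := hS1
      obtain ⟨x, hx, he⟩ := hex (ηh D τ)
      exact false_of_omega₂ C hτ (hT hx) (hT hy) he p1 p2
  · intro H K hKH hc hs τ hτ x hx hN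
    have hNx : NN D x = ηh D τ := AddMonoidHom.ext (fun q => by rw [hN, ηh_apply])
    exact s_le2_of_T C hKH hs hx.1 (hT hx.2) (hN_eta C hτ hNx) (hN0_eta C hτ hNx) (inv_of_eta C hτ hx.2 hNx)

end Cfsg.Agent.Lib.MacW.CaseC
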