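import Cfsg.Agent.Lib.MacW.Basic

/-!
# The chain lemma

Inside `P₂`, squaring embeds each layer of the annihilator filtration into the layer below, so
the number of generators of a subgroup of `P₂` modulo its intersection with `B` is controlled by
the first layer.
-/

set_option autoImplicit false
set_option linter.unusedSectionVars false

namespace Cfsg.Agent.Lib.MacW.Chain

open Cfsg.Agent.Lib.TwoFusion.SecRank Cfsg.Agent.Lib.SelfCentE8.Setup Cfsg.Agent.Lib.SelfCentE8.Count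
open Cfsg.Agent.Lib.SelfCentE8.TCore Cfsg.Agent.Lib.MacW.Basic
open Mod

section generic
variable {S : Type*} [Group S] [Finite S]

/-- One step of the chain. -/
lemma chain_step {N A C K : Subgroup S} (hNA : N ≤ A) (hsqA : ∀ x ∈ C, x * x ∈ A)
    (hsqK : ∀ x ∈ C, x * x ∈ K)
    (hinj : ∀ x ∈ C, ∀ y ∈ C, (x * x)⁻¹ * (y * y) ∈ N → x⁻¹ * y ∈ A) :
    K.relIndex A * A.relIndex C ≤ K.relIndex N * N.relIndex A := by
  classical
  have h1 : A.relIndex C ≤ (N ⊓ K).relIndex (A ⊓ K) := by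
    let X := (A ⊓ K : Subgroup S) ⧸ ((N ⊓ K).subgroupOf (A ⊓ K))
    have hX : Nat.card X = (N ⊓ K).relIndex (A ⊓ K) := rfl
    rw [← hX]
    apply relIndex_le_of_fun A C (X := X) (fun x => if hx : x ∈ C then
      (QuotientGroup.mk ⟨x * x, hsqA x hx, hsqK x hx⟩ : X) else (QuotientGroup.mk 1 : X))
    intro x hx y hy hf
    simp only [hx, hy, dif_pos] at hf
    have h2 := QuotientGroup.eq.1 hf
    rw [Subgroup.mem_subgroupOf] at h2
    exact hinj x hx y hy h2.1
  have h2 : K.relIndex N * N.relIndex A = (N ⊓ K).relIndex A := by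
    rw [← Subgroup.relIndex_mul_relIndex (N ⊓ K) N A inf_le_left hNA, Subgroup.inf_relIndex_left]
  have h3 : K.relIndex A * (N ⊓ K).relIndex (A ⊓ K) = (N ⊓ K).relIndex A := by
    rw [← Subgroup.relIndex_mul_relIndex (N ⊓ K) (A ⊓ K) A (inf_le_inf_right _ hNA) inf_le_left,
      Subgroup.inf_relIndex_left, mul_comm]
  rw [h2, ← h3]
  exact Nat.mul_le_mul_left _ h1

lemma relIndex_pos' (A C : Subgroup S) : 0 < A.relIndex C := by
  exact Nat.pos_of_ne_zero Subgroup.index_ne_zero_of_finite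

end generic

variable {S V : Type*} [Group S] [Finite S] [AddCommGroup V] {D : Mod S V}

/-- The chain lemma. -/
theorem chain {M : ℕ} (hM : ∀ v : V, (2 ^ M : ℕ) • v = 0) (H₂ K : Subgroup S) (hH₂ : H₂ ≤ P2 D)
    (hsq : ∀ x ∈ H₂, x * x ∈ K) :
    K.relIndex H₂ ≤ K.relIndex (H₂ ⊓ Ann D 0) * (H₂ ⊓ Ann D 0).relIndex (H₂ ⊓ Ann D 1) := by
  let L : ℕ → Subgroup S := fun j => H₂ ⊓ Ann D j
  have hLtop : L M = H₂ := by
    apply inf_of_le_left
    intro x _
    exact mem_Ann.2 (fun v => hM _)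
  have hstep : ∀ j, K.relIndex (L (j + 1)) * (L (j + 1)).relIndex (L (j + 2)) ≤
      K.relIndex (L j) * (L j).relIndex (L (j + 1)) := by
    intro j
    apply chain_step
    · exact inf_le_inf_left _ (Ann_mono (Nat.le_succ j))
    · intro x hx
      exact ⟨H₂.mul_mem hx.1 hx.1, sq_mem_Ann (P2_le_S1 (hH₂ hx.1)) hx.2⟩
    · intro x hx
      exact hsq x hx.1
    · intro x hx y hy h
      have hx1 := hH₂ hx.1
      have hy1 := hH₂ hy.1
      refine ⟨H₂.mul_mem (H₂.inv_mem hx.1) hy.1, ?_⟩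
      have hw : x⁻¹ * y ∈ P2 D := (P2 D).mul_mem ((P2 D).inv_mem hx1) hy1
      apply mem_Ann_of_sq hM _ (hcov_P2 hw)
      -- the square of `x⁻¹ * y`
      have hc : x * y * x⁻¹ * y⁻¹ ∈ Ann D j := comm_mem_Ann hx1 hy1 hx.2 hy.2
      have e : (x⁻¹ * y) * (x⁻¹ * y) = (x * x)⁻¹ * (x * y * x⁻¹ * y⁻¹) * (x * x) * ((x * x)⁻¹ * (y * y)) := by
        group
      rw [e]
      refine (Ann D j).mul_mem ?_ h.2
      have := (inferInstance : (Ann D j).Normal).conj_mem _ hc (x * x)⁻¹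
      simpa using this
  have hdesc : ∀ j, K.relIndex (L j) * (L j).relIndex (L (j + 1)) ≤ K.relIndex (L 0) * (L 0).relIndex (L 1) := by
    intro j
    induction j with
    | zero => exact le_rfl
    | succ j ih => exact (hstep j).trans ih
  have h1 := hdesc M
  rw [hLtop] at h1
  have h2 : 0 < H₂.relIndex (L (M + 1)) := relIndex_pos' _ _
  calc K.relIndex H₂ ≤ K.relIndex H₂ * H₂.relIndex (L (M + 1)) := Nat.le_mul_of_pos_right _ h2
    _ ≤ _ := h1

end Cfsg.Agent.Lib.MacW.Chain
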