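import Cfsg.Agent.Lib.MacW.Sigma

/-!
# The count below `P₂`
-/

set_option autoImplicit false
set_option linter.unusedSectionVars false

namespace Cfsg.Agent.Lib.MacW.Core

open Cfsg.Agent.Lib.TwoFusion.SecRank Cfsg.Agent.Lib.SelfCentE8.Setup Cfsg.Agent.Lib.SelfCentE8.Count
open Cfsg.Agent.Lib.SelfCentE8.TCore Cfsg.Agent.Lib.SelfCentE8.TCount Cfsg.Agent.Lib.SelfCentE8.Gamma
open Cfsg.Agent.Lib.SelfCentE8.N1
open Cfsg.Agent.Lib.MacW.Basic Cfsg.Agent.Lib.MacW.Chain Cfsg.Agent.Lib.MacW.Sigma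
open Mod

variable {S V : Type*} [Group S] [AddCommGroup V] {D : Mod S V} [Finite V] (C : Ctx D)

lemma Q_neg (q : Q V) : -q = q := neg_eq_of_add_eq_zero_left (Q_two q)

/-- The image of `H ∩ W` under `σ`. -/
def AA (C : Ctx D) (H : Subgroup S) : AddSubgroup (Q V) where
  carrier := {q | ∃ w ∈ H ⊓ W D, ∃ b, w * w = D.ι b ∧ mkQ b = q}
  add_mem' := by
    rintro _ _ ⟨w, hw, b, hb, rfl⟩ ⟨w', hw', b', hb', rfl⟩
    obtain ⟨c, hc⟩ := T_comm C.hV2 hw.2.1 hw'.2.1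
    have hc0 := comm_W C.hV2 hw'.2 hw.2.1 (hN_W C hw.2) hc
    refine ⟨w * w', (H ⊓ W D).mul_mem hw hw', _, sq_mul hc hb hb', ?_⟩
    rw [sq_mulQ C.hV2 hw.2.1, hc0, add_zero]
  zero_mem' := ⟨1, (H ⊓ W D).one_mem, 0, by simp, rfl⟩
  neg_mem' := by
    rintro _ ⟨w, hw, b, hb, rfl⟩
    exact ⟨w, hw, b, hb, (Q_neg _).symm⟩

variable {H K : Subgroup S}

include C in
lemma AA_le (hs : ∀ x ∈ H, x * x ∈ K) : AA C H ≤ Im D K := by
  rintro _ ⟨w, hw, b, hb, rfl⟩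
  refine ⟨b, ?_, rfl⟩
  change D.ι b ∈ K
  rw [← hb]
  exact hs w hw.1

lemma relIndex_L1_le [Finite S] :
    ((H ⊓ P2 D) ⊓ Ann D 0).relIndex ((H ⊓ P2 D) ⊓ Ann D 1) ≤ Nat.card (AA C H) := by
  classical
  have hmem : ∀ x ∈ (H ⊓ P2 D) ⊓ Ann D 1, x ∈ H ⊓ W D := by
    intro x hx
    refine ⟨hx.1.1, ?_, hx.1.2⟩
    rw [← Ann_one_eq]
    exact hx.2
  have hdata : ∀ x ∈ (H ⊓ P2 D) ⊓ Ann D 1, ∃ b, x * x = D.ι b :=
    fun x hx => T_sq C.hV2 (hmem x hx).2.1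
  apply relIndex_le_of_fun _ _ (X := AA C H) (fun x => if hx : x ∈ (H ⊓ P2 D) ⊓ Ann D 1 then
    ⟨mkQ (hdata x hx).choose, x, hmem x hx, _, (hdata x hx).choose_spec, rfl⟩ else 0)
  intro x hx y hy hf
  simp only [hx, hy, dif_pos] at hf
  have h1 := W_inj C (hmem x hx).2 (hmem y hy).2 (hdata x hx).choose_spec (hdata y hy).choose_spec (congrArg Subtype.val hf)
  refine ⟨(H ⊓ P2 D).mul_mem ((H ⊓ P2 D).inv_mem hx.1) hy.1, ?_⟩
  exact B_le_Ann 0 h1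

lemma L0_eq : (H ⊓ P2 D) ⊓ Ann D 0 = D.B ⊓ H := by
  rw [Ann_zero_eq]
  ext x
  constructor
  · intro h
    exact ⟨h.2, h.1.1⟩
  · intro h
    exact ⟨⟨h.2, B_le_P2 h.1⟩, h.1⟩

include C in
lemma count_K [Finite S] (hKH : K ≤ H) (hs : ∀ x ∈ H, x * x ∈ K) :
    K.relIndex ((H ⊓ P2 D) ⊓ Ann D 0) * Nat.card (Im D K) ≤ 4 := by
  rw [L0_eq]
  have h1 := card_eq_relIndex_mul_inf K (D.B ⊓ H)
  have h2 : K ⊓ (D.B ⊓ H) = D.B ⊓ K := by
    ext x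
    constructor
    · intro h
      exact ⟨h.2.1, h.1⟩
    · intro h
      exact ⟨h.2, h.1, hKH h.2⟩
  rw [h2, ← card_pull D H, ← card_pull D K] at h1
  have h3 : Nat.card (pull D H) ≤ 4 * Nat.card (pull D K ⊓ Dbl 2 : AddSubgroup V) := by
    rw [← C.hW]
    apply card_le_of_double
    intro v hv
    refine ⟨?_, ⟨v, rfl⟩⟩
    have h3 := hs _ hv
    change D.ι ((2 : ℕ) • v) ∈ K
    rw [two_nsmul, D.ι_add]
    exact h3
  have h4 := card_K0 (pull D K)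
  have hpos : 0 < Nat.card (pull D K ⊓ Dbl 2 : AddSubgroup V) := Nat.card_pos
  apply Nat.le_of_mul_le_mul_right _ hpos
  calc K.relIndex (D.B ⊓ H) * Nat.card (Im D K) * Nat.card (pull D K ⊓ Dbl 2 : AddSubgroup V)
      = K.relIndex (D.B ⊓ H) * (Nat.card (pull D K ⊓ Dbl 2 : AddSubgroup V) * Nat.card (Im D K)) := by ring
    _ = Nat.card (pull D H) := by rw [h1, h4]
    _ ≤ _ := h3

/-- The bound at the bottom. -/
lemma F0_mul [Finite S] (hKH : K ≤ H) (hs : ∀ x ∈ H, x * x ∈ K) :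
    K.relIndex ((H ⊓ P2 D) ⊓ Ann D 0) * ((H ⊓ P2 D) ⊓ Ann D 0).relIndex ((H ⊓ P2 D) ⊓ Ann D 1) *
      Nat.card (Im D K) ≤ 4 * Nat.card (AA C H) := by
  have h1 := count_K C hKH hs
  have h2 := relIndex_L1_le C (H := H)
  calc _ = K.relIndex ((H ⊓ P2 D) ⊓ Ann D 0) * Nat.card (Im D K) *
        ((H ⊓ P2 D) ⊓ Ann D 0).relIndex ((H ⊓ P2 D) ⊓ Ann D 1) := by ring
    _ ≤ 4 * Nat.card (AA C H) := Nat.mul_le_mul h1 h2

include C in
lemma F0_le4 [Finite S] (hKH : K ≤ H) (hs : ∀ x ∈ H, x * x ∈ K) :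
    K.relIndex ((H ⊓ P2 D) ⊓ Ann D 0) * ((H ⊓ P2 D) ⊓ Ann D 0).relIndex ((H ⊓ P2 D) ⊓ Ann D 1) ≤ 4 := by
  have h1 := F0_mul C hKH hs
  have h2 : Nat.card (AA C H) ≤ Nat.card (Im D K) := AddSubgroup.card_le_of_le (AA_le C hs)
  have hpos : 0 < Nat.card (Im D K) := Nat.card_pos
  apply Nat.le_of_mul_le_mul_right _ hpos
  exact h1.trans (Nat.mul_le_mul_left _ h2)

include C in
lemma F0_le2 [Finite S] (hKH : K ≤ H) (hs : ∀ x ∈ H, x * x ∈ K) {t : S} (htH : t ∈ H) (ht : t ∈ T D)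
    (hN : ∀ q, NN D t q = q → q = 0) (hN0 : NN D t ≠ 0) (hinv : ∀ g, NN D (g * t * g⁻¹) = NN D t) :
    K.relIndex ((H ⊓ P2 D) ⊓ Ann D 0) * ((H ⊓ P2 D) ⊓ Ann D 0).relIndex ((H ⊓ P2 D) ⊓ Ann D 1) ≤ 2 := by
  have h1 := F0_mul C hKH hs
  have hle := AA_le C hs
  obtain ⟨b, hb⟩ := T_sq C.hV2 ht
  have hnot : mkQ b ∉ AA C H := by
    rintro ⟨w, hw, b', hb', he⟩
    exact sigma_ne C ht hN hN0 hinv hb hw.2 hb' he.symm
  have hin : mkQ b ∈ Im D K := by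
    refine ⟨b, ?_, rfl⟩
    change D.ι b ∈ K
    rw [← hb]
    exact hs t htH
  have hlt : AA C H < Im D K := lt_of_le_of_ne hle (fun h => hnot (h ▸ hin))
  have h2 : 2 * Nat.card (AA C H) ≤ Nat.card (Im D K) := by
    have hd : Nat.card (AA C H) ∣ Nat.card (Im D K) := AddSubgroup.card_dvd_of_le hle
    obtain ⟨m, hm⟩ := hd
    have hcardlt : Nat.card (AA C H) < Nat.card (Im D K) := by
      have h3 : (AA C H : Set (Q V)) ⊂ Im D K := SetLike.coe_ssubset_coe.mpr hlt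
      have := Set.ncard_lt_ncard h3 (Set.toFinite _)
      rwa [← Nat.card_coe_set_eq, ← Nat.card_coe_set_eq] at this
    have hp : 0 < Nat.card (AA C H) := Nat.card_pos
    have hm2 : 2 ≤ m := by
      by_contra h
      have : m ≤ 1 := by omega
      have h5 : Nat.card (Im D K) ≤ Nat.card (AA C H) * 1 := by
        rw [hm]
        exact Nat.mul_le_mul_left _ this
      omega
    rw [hm, mul_comm]
    exact Nat.mul_le_mul_left _ hm2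
  have hp : 0 < Nat.card (AA C H) := Nat.card_pos
  apply Nat.le_of_mul_le_mul_right _ (Nat.mul_pos (by norm_num : 0 < 2) hp)
  calc _ ≤ K.relIndex ((H ⊓ P2 D) ⊓ Ann D 0) * ((H ⊓ P2 D) ⊓ Ann D 0).relIndex ((H ⊓ P2 D) ⊓ Ann D 1) *
        Nat.card (Im D K) := Nat.mul_le_mul_left _ h2
    _ ≤ 4 * Nat.card (AA C H) := h1
    _ = _ := by ring

include C in
/-- The chain with the bottom replaced. -/
lemma chain_le [Finite S] {K' : Subgroup S} (hK' : D.B ⊓ K ≤ K') (hKH : K ≤ H) (hsq : ∀ x ∈ H ⊓ P2 D, x * x ∈ K') :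
    K'.relIndex (H ⊓ P2 D) ≤
      K.relIndex ((H ⊓ P2 D) ⊓ Ann D 0) * ((H ⊓ P2 D) ⊓ Ann D 0).relIndex ((H ⊓ P2 D) ⊓ Ann D 1) := by
  obtain ⟨M, hM⟩ := exists_exp D C.hS
  have h1 := chain hM (H ⊓ P2 D) K' inf_le_right hsq
  refine h1.trans (Nat.mul_le_mul_right _ ?_)
  rw [L0_eq]
  have h2 : K ⊓ (D.B ⊓ H) ≤ K' ⊓ (D.B ⊓ H) := by
    intro x hx
    exact ⟨hK' ⟨hx.2.1, hx.1⟩, hx.2⟩
  have h3 := Subgroup.relIndex_dvd_of_le_left (D.B ⊓ H) h2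
  rw [Subgroup.inf_relIndex_right, Subgroup.inf_relIndex_right] at h3
  exact Nat.le_of_dvd (Nat.pos_of_ne_zero Subgroup.index_ne_zero_of_finite) h3

end Cfsg.Agent.Lib.MacW.Core
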