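import Cfsg.Agent.Lib.MacW.Core

/-!
# Squares of elements of `S₁` at level two
-/

set_option autoImplicit false
set_option linter.unusedSectionVars false

namespace Cfsg.Agent.Lib.MacW.Level2

open Cfsg.Agent.Lib.TwoFusion.SecRank Cfsg.Agent.Lib.SelfCentE8.Setup Cfsg.Agent.Lib.SelfCentE8.Count
open Cfsg.Agent.Lib.SelfCentE8.TCore Cfsg.Agent.Lib.SelfCentE8.TCount Cfsg.Agent.Lib.SelfCentE8.Gamma
open Cfsg.Agent.Lib.SelfCentE8.N1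
open Cfsg.Agent.Lib.MacW.Basic Cfsg.Agent.Lib.MacW.Chain Cfsg.Agent.Lib.MacW.Sigma Cfsg.Agent.Lib.MacW.Core
open Mod

variable {S V : Type*} [Group S] [AddCommGroup V] {D : Mod S V}

lemma sq_P2_mem_P3 {y : S} (hy : y ∈ P2 D) : y * y ∈ P3 D := by
  refine mem_P3.2 (fun v => ?_)
  obtain ⟨a, ha⟩ := mem_P2.1 hy v
  obtain ⟨b, hb⟩ := mem_P2.1 hy a
  refine ⟨a + (2 : ℕ) • b, ?_⟩
  rw [δ_sq, ← ha, D.δ_nsmul, ← hb, smul_add, ← mul_nsmul, ← mul_nsmul, ← mul_nsmul]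

lemma sq_S1_mem_P2' {x : S} (hx : x ∈ S1 D) {u u' v : V} (hu : (2 : ℕ) • u = D.δ x v) (hu' : (2 : ℕ) • u' = D.δ x u) :
    D.δ (x * x) v = (4 : ℕ) • (u + u') := by
  rw [δ_sq, ← hu, D.δ_nsmul, ← hu', ← mul_nsmul, ← mul_nsmul, smul_add]

lemma sq_S1_mem_P2 {x : S} (hx : x ∈ S1 D) : x * x ∈ P2 D := by
  refine mem_P2.2 (fun v => ?_)
  obtain ⟨u, hu⟩ := mem_S1.1 hx v
  obtain ⟨u', hu'⟩ := mem_S1.1 hx u
  exact ⟨u + u', (sq_S1_mem_P2' hx hu hu').symm⟩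

section
variable [Finite V] (hV2 : ∀ w : V, (2 : ℕ) • w = 0 → w ∈ (Dbl 2 : AddSubgroup V))

/-- `N + N²`. -/
def qN (n : Q V →+ Q V) : Q V →+ Q V := n + n.comp n

lemma qN_apply (n : Q V →+ Q V) (q : Q V) : qN n q = n q + n (n q) := rfl

include hV2

/-- Comparing squares at level two. -/
lemma sq_level {x x' : S} (hx : x ∈ S1 D) (hx' : x' ∈ S1 D) (h : (x * x)⁻¹ * (x' * x') ∈ P3 D) (q : Q V) :
    ∃ r : V, (4 : ℕ) • r = 0 ∧ qN (NN D x) q + qN (NN D x') q = mkQ r := by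
  obtain ⟨v, rfl⟩ := QuotientAddGroup.mk_surjective q
  obtain ⟨u, hu⟩ := mem_S1.1 hx v
  obtain ⟨u₁, hu₁⟩ := mem_S1.1 hx u
  obtain ⟨w, hw⟩ := mem_S1.1 hx' v
  obtain ⟨w₁, hw₁⟩ := mem_S1.1 hx' w
  obtain ⟨a, ha⟩ := mem_P3.1 h v
  have e1 := sq_S1_mem_P2' hx hu hu₁
  have e2 := sq_S1_mem_P2' hx' hw hw₁
  have e3 : D.δ (x' * x') v = D.ρ (x * x) (D.δ ((x * x)⁻¹ * (x' * x')) v) + D.δ (x * x) v := by
    rw [← D.δ_mul]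
    group
  rw [← ha, map_nsmul, e1, e2] at e3
  have key : (4 : ℕ) • ((w + w₁) - (u + u₁) - (2 : ℕ) • D.ρ (x * x) a) = 0 := by
    rw [smul_sub, smul_sub, e3, ← mul_nsmul']
    norm_num
  refine ⟨_, key, ?_⟩
  change qN (NN D x) (mkQ v) + qN (NN D x') (mkQ v) = _
  have h0 : mkQ ((2 : ℕ) • D.ρ (x * x) a) = 0 := mkQ_eq_zero.2 ⟨_, rfl⟩
  rw [qN_apply, qN_apply, NN_spec hV2 hx hu, NN_spec hV2 hx hu₁, NN_spec hV2 hx' hw, NN_spec hV2 hx' hw₁,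
    mkQ_sub hV2, mkQ_sub hV2, mkQ_add, mkQ_add, h0, add_zero, add_comm]

/-- A square outside `P₃`. -/
lemma sq_level_one {x : S} (hx : x ∈ S1 D) (h : x * x ∈ P3 D) (q : Q V) :
    ∃ r : V, (4 : ℕ) • r = 0 ∧ qN (NN D x) q = mkQ r := by
  have h1 := sq_level hV2 hx (S1 D).one_mem (x' := 1) (by simpa using (P3 D).inv_mem h) q
  obtain ⟨r, hr, he⟩ := h1
  refine ⟨r, hr, ?_⟩
  rw [← he, NN_one hV2]
  simp [qN]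

/-- The converse. -/
lemma sq_mem_P3_of {x : S} (hx : x ∈ S1 D) (h : ∀ q, ∃ r : V, (4 : ℕ) • r = 0 ∧ qN (NN D x) q = mkQ r) :
    x * x ∈ P3 D := by
  refine mem_P3.2 (fun v => ?_)
  obtain ⟨u, hu⟩ := mem_S1.1 hx v
  obtain ⟨u₁, hu₁⟩ := mem_S1.1 hx u
  obtain ⟨r, hr, he⟩ := h (mkQ v)
  rw [qN_apply, NN_spec hV2 hx hu, NN_spec hV2 hx hu₁, ← mkQ_add] at he
  obtain ⟨a, ha⟩ := mkQ_eq.1 he
  have ha' : (2 : ℕ) • a = u + u₁ - r := ha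
  refine ⟨a, ?_⟩
  rw [sq_S1_mem_P2' hx hu hu₁]
  have e : (8 : ℕ) • a = (4 : ℕ) • ((2 : ℕ) • a) := by
    rw [← mul_nsmul']
  rw [e, ha', smul_sub, hr, sub_zero]

end

section count
variable [Finite S] [Finite V] (C : Ctx D) {H K : Subgroup S}

include C in
/-- The main inequality below `S₁`. -/
lemma s_mul_r_le {F : ℕ}
    (hKH : K ≤ H) (hs : ∀ x ∈ H, x * x ∈ K)
    (hF : K.relIndex ((H ⊓ P2 D) ⊓ Ann D 0) * ((H ⊓ P2 D) ⊓ Ann D 0).relIndex ((H ⊓ P2 D) ⊓ Ann D 1) ≤ F) :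
    K.relIndex (H ⊓ P2 D) * (K ⊓ P3 D).relIndex (K ⊓ P2 D) ≤ F := by
  have h1 := chain_le C (K' := K ⊓ P3 D) (K := K) (H := H)
    (fun x hx => ⟨hx.2, B_le_P3 hx.1⟩) hKH (fun x hx => ⟨hs x hx.1, sq_P2_mem_P3 hx.2⟩)
  refine le_trans (le_of_eq ?_) (h1.trans hF)
  have h2 : K ⊓ P2 D ≤ H ⊓ P2 D := inf_le_inf_right _ hKH
  have h3 : K ⊓ P3 D ≤ K ⊓ P2 D := inf_le_inf_left _ P3_le_P2
  rw [← Subgroup.relIndex_mul_relIndex _ _ _ h3 h2, mul_comm]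
  congr 1
  have h4 : K.relIndex (H ⊓ P2 D) = (K ⊓ (H ⊓ P2 D)).relIndex (H ⊓ P2 D) :=
    (Subgroup.inf_relIndex_right _ _).symm
  rw [h4]
  congr 1
  ext x
  exact ⟨fun h => ⟨h.1, h.2.2⟩, fun h => ⟨h.1, hKH h.1, h.2⟩⟩

/-- Two cosets. -/
lemma two_le_r {K₂ K₃ : Subgroup S} (h : ¬ K₂ ≤ K₃) : 2 ≤ K₃.relIndex K₂ := by
  have h1 : K₃.relIndex K₂ ≠ 1 := fun h2 => h (Subgroup.relIndex_eq_one.1 h2)
  have h2 : 0 < K₃.relIndex K₂ := relIndex_pos' _ _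
  omega

/-- Four cosets. -/
lemma four_le_r {K₂ K₃ : Subgroup S} {y₁ y₂ y₃ : S} (h₁ : y₁ ∈ K₂) (h₂ : y₂ ∈ K₂) (h₃ : y₃ ∈ K₂) (n₁ : y₁ ∉ K₃)
    (n₂ : y₂ ∉ K₃) (n₃ : y₃ ∉ K₃) (n₁₂ : y₁⁻¹ * y₂ ∉ K₃) (n₁₃ : y₁⁻¹ * y₃ ∉ K₃) (n₂₃ : y₂⁻¹ * y₃ ∉ K₃) :
    4 ≤ K₃.relIndex K₂ := by
  classical
  let X := K₂ ⧸ (K₃.subgroupOf K₂)
  have hX : Nat.card X = K₃.relIndex K₂ := rfl
  let f : Fin 4 → X := ![QuotientGroup.mk 1, QuotientGroup.mk ⟨y₁, h₁⟩, QuotientGroup.mk ⟨y₂, h₂⟩, QuotientGroup.mk ⟨y₃, h₃⟩]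
  have key : ∀ a b : K₂, (QuotientGroup.mk a : X) = QuotientGroup.mk b → (a : S)⁻¹ * b ∈ K₃ := by
    intro a b h
    have := QuotientGroup.eq.1 h
    rwa [Subgroup.mem_subgroupOf] at this
  have hinj : Function.Injective f := by
    have e0 : ∀ y (hy : y ∈ K₂), y ∉ K₃ → (QuotientGroup.mk 1 : X) ≠ QuotientGroup.mk ⟨y, hy⟩ := by
      intro y hy hn he
      apply hn
      have := key _ _ he
      simpa using this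
    have e1 : ∀ y y' (hy : y ∈ K₂) (hy' : y' ∈ K₂), y⁻¹ * y' ∉ K₃ →
        (QuotientGroup.mk ⟨y, hy⟩ : X) ≠ QuotientGroup.mk ⟨y', hy'⟩ := by
      intro y y' hy hy' hn he
      exact hn (key _ _ he)
    intro i j hij
    fin_cases i <;> fin_cases j <;> first
      | rfl
      | exact absurd hij (e0 _ h₁ n₁)
      | exact absurd hij (e0 _ h₂ n₂)
      | exact absurd hij (e0 _ h₃ n₃)
      | exact absurd hij.symm (e0 _ h₁ n₁)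
      | exact absurd hij.symm (e0 _ h₂ n₂)
      | exact absurd hij.symm (e0 _ h₃ n₃)
      | exact absurd hij (e1 _ _ h₁ h₂ n₁₂)
      | exact absurd hij (e1 _ _ h₁ h₃ n₁₃)
      | exact absurd hij (e1 _ _ h₂ h₃ n₂₃)
      | exact absurd hij.symm (e1 _ _ h₁ h₂ n₁₂)
      | exact absurd hij.symm (e1 _ _ h₁ h₃ n₁₃)
      | exact absurd hij.symm (e1 _ _ h₂ h₃ n₂₃)
  have := Nat.card_le_card_of_injective f hinj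
  rwa [Nat.card_fin, hX] at this

include C

lemma s_le4 (hKH : K ≤ H) (hs : ∀ x ∈ H, x * x ∈ K) : K.relIndex (H ⊓ P2 D) ≤ 4 := by
  have h1 := s_mul_r_le C hKH hs (F0_le4 C hKH hs)
  have h2 : 0 < (K ⊓ P3 D).relIndex (K ⊓ P2 D) := relIndex_pos' _ _
  exact (Nat.le_mul_of_pos_right _ h2).trans h1

/-- A square not in `P₃` saves a factor of 2. -/
lemma s_le2_of_sq (hKH : K ≤ H) (hs : ∀ x ∈ H, x * x ∈ K) {x : S} (hx : x ∈ H) (hx1 : x ∈ S1 D) (hn : x * x ∉ P3 D) :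
    K.relIndex (H ⊓ P2 D) ≤ 2 := by
  have h1 := s_mul_r_le C hKH hs (F0_le4 C hKH hs)
  have h2 : 2 ≤ (K ⊓ P3 D).relIndex (K ⊓ P2 D) := by
    apply two_le_r
    intro h
    exact hn (h ⟨hs x hx, sq_S1_mem_P2 hx1⟩).2
  by_contra h3
  push Not at h3
  have : 3 * 2 ≤ K.relIndex (H ⊓ P2 D) * (K ⊓ P3 D).relIndex (K ⊓ P2 D) := Nat.mul_le_mul h3 h2
  omega

/-- Three independent squares save a factor of 4. -/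
lemma s_le1_of_three (hKH : K ≤ H) (hs : ∀ x ∈ H, x * x ∈ K) {x₁ x₂ x₃ : S} (hx₁ : x₁ ∈ H) (hx₂ : x₂ ∈ H) (hx₃ : x₃ ∈ H)
    (h₁ : x₁ ∈ S1 D) (h₂ : x₂ ∈ S1 D) (h₃ : x₃ ∈ S1 D) (n₁ : x₁ * x₁ ∉ P3 D) (n₂ : x₂ * x₂ ∉ P3 D) (n₃ : x₃ * x₃ ∉ P3 D)
    (n₁₂ : (x₁ * x₁)⁻¹ * (x₂ * x₂) ∉ P3 D) (n₁₃ : (x₁ * x₁)⁻¹ * (x₃ * x₃) ∉ P3 D)
    (n₂₃ : (x₂ * x₂)⁻¹ * (x₃ * x₃) ∉ P3 D) : K.relIndex (H ⊓ P2 D) ≤ 1 := by
  have h1 := s_mul_r_le C hKH hs (F0_le4 C hKH hs)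
  have h2 : 4 ≤ (K ⊓ P3 D).relIndex (K ⊓ P2 D) := by
    exact four_le_r (K₂ := K ⊓ P2 D) (K₃ := K ⊓ P3 D) (y₁ := x₁ * x₁) (y₂ := x₂ * x₂) (y₃ := x₃ * x₃) ⟨hs _ hx₁, sq_S1_mem_P2 h₁⟩ ⟨hs _ hx₂, sq_S1_mem_P2 h₂⟩
      ⟨hs _ hx₃, sq_S1_mem_P2 h₃⟩ (fun h => n₁ h.2) (fun h => n₂ h.2) (fun h => n₃ h.2) (fun h => n₁₂ h.2)
      (fun h => n₁₃ h.2) (fun h => n₂₃ h.2)
  by_contra h3
  push Not at h3
  have : 2 * 4 ≤ K.relIndex (H ⊓ P2 D) * (K ⊓ P3 D).relIndex (K ⊓ P2 D) := Nat.mul_le_mul h3 h2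
  omega

/-- Saving from an element of `T`. -/
lemma s_le2_of_T (hKH : K ≤ H) (hs : ∀ x ∈ H, x * x ∈ K) {t : S} (htH : t ∈ H) (ht : t ∈ T D)
    (hN : ∀ q, NN D t q = q → q = 0) (hN0 : NN D t ≠ 0) (hinv : ∀ g, NN D (g * t * g⁻¹) = NN D t) :
    K.relIndex (H ⊓ P2 D) ≤ 2 := by
  have h1 := s_mul_r_le C hKH hs (F0_le2 C hKH hs htH ht hN hN0 hinv)
  have h2 : 0 < (K ⊓ P3 D).relIndex (K ⊓ P2 D) := relIndex_pos' _ _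
  exact (Nat.le_mul_of_pos_right _ h2).trans h1

end count

end Cfsg.Agent.Lib.MacW.Level2
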