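import Cfsg.Agent.Lib.MacW.CaseA
import Cfsg.Agent.Lib.MacW.CaseB
import Cfsg.Agent.Lib.MacW.CaseC
import Cfsg.Agent.Lib.SelfCentE8.Level
import Cfsg.Agent.Lib.PGroups.MaxAbelian
import Cfsg.Agent.Lib.SelfCentE8.R2

/-!
# MacWilliams' theorem: no normal `E₈` implies sectional 2-rank at most 4
-/

set_option autoImplicit false
set_option linter.unusedSectionVars false

namespace Cfsg.Agent.Lib.MacW.Main

open Cfsg.Agent.Lib.TwoFusion.SecRank Cfsg.Agent.Lib.SelfCentE8.Setup Cfsg.Agent.Lib.SelfCentE8.Count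
open Cfsg.Agent.Lib.SelfCentE8.TCore Cfsg.Agent.Lib.SelfCentE8.TCount Cfsg.Agent.Lib.SelfCentE8.Gamma
open Cfsg.Agent.Lib.SelfCentE8.N1 Cfsg.Agent.Lib.SelfCentE8.Level
open Cfsg.Agent.Lib.MacW.Basic Cfsg.Agent.Lib.MacW.Chain Cfsg.Agent.Lib.MacW.Sigma Cfsg.Agent.Lib.MacW.Core
open Cfsg.Agent.Lib.MacW.Level2 Cfsg.Agent.Lib.MacW.Finite Cfsg.Agent.Lib.MacW.Assembly
open Mod

variable {S V : Type*} [Group S] [AddCommGroup V] [Finite S]

/-- The case `V[2] ≤ 2V`, rank two. -/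
theorem secBd_level [Finite V] {D : Mod S V} (C : Ctx D) : SecBd 4 S := by
  by_cases hA : ∀ w : V, (2 : ℕ) • w = 0 → w ∈ (Dbl 4 : AddSubgroup V)
  · exact CaseA.secBd_A C hA
  · push Not at hA
    by_cases h4 : ∃ v : V, (4 : ℕ) • v ≠ 0
    · obtain ⟨p, f, B⟩ := CaseB.exists_BData C hA h4
      exact CaseB.secBd_B C B
    · push Not at h4
      exact CaseC.secBd_C C h4

/-- The cyclic case. -/
theorem secBd_cyclic (hS : IsPGroup 2 S) (D : Mod S V) (hW : Nat.card (Tor 2 : AddSubgroup (V)) ≤ 2) : SecBd 4 S := by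
  classical
  intro H K hKH hc hs
  haveI : Finite V := Finite.of_injective D.ι D.ι_inj
  obtain ⟨M, hM⟩ := exists_exp D hS
  have hzz : ∃ z : V, ∀ t : V, (2 : ℕ) • t = 0 → t = 0 ∨ t = z := by
    by_cases h : ∃ z : V, (2 : ℕ) • z = 0 ∧ z ≠ 0
    · obtain ⟨z, hz2, hz0⟩ := h
      refine ⟨z, fun t ht => ?_⟩
      by_contra hno
      push Not at hno
      have h3 : 2 < Nat.card (Tor 2 : AddSubgroup V) := by
        haveI := Fintype.ofFinite (Tor 2 : AddSubgroup V)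
        rw [Nat.card_eq_fintype_card, Fintype.two_lt_card_iff]
        refine ⟨⟨0, AddSubgroup.zero_mem _⟩, ⟨z, hz2⟩, ⟨t, ht⟩, ?_, ?_, ?_⟩
        · exact fun h => hz0 (congrArg Subtype.val h).symm
        · exact fun h => hno.1 (congrArg Subtype.val h).symm
        · exact fun h => hno.2 (congrArg Subtype.val h).symm
      omega
    · push Not at h
      exact ⟨0, fun t ht => Or.inl (h t ht)⟩
  obtain ⟨z, hz⟩ := hzz
  obtain ⟨g, -, hg⟩ := exists_gen hM (⊤ : AddSubgroup V) (z := z) (fun t _ ht => hz t ht)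
  have hgen : ∀ u : V, ∃ n : ℤ, u = n • g := fun u => hg u trivial
  -- `V / 4V`
  have hcard4 : Nat.card (V ⧸ (Dbl 4 : AddSubgroup V)) ≤ 4 := by
    have hsurj : Function.Surjective (fun i : Fin 4 => (QuotientAddGroup.mk ((i : ℕ) • g) : V ⧸ (Dbl 4 : AddSubgroup V))) := by
      intro q
      obtain ⟨v, rfl⟩ := QuotientAddGroup.mk_surjective q
      obtain ⟨n, rfl⟩ := hgen v
      have hr : (n % 4).toNat < 4 := by omega
      refine ⟨⟨(n % 4).toNat, hr⟩, ?_⟩
      apply QuotientAddGroup.eq.2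
      refine ⟨(n / 4) • g, ?_⟩
      change (4 : ℕ) • (n / 4) • g = -(((n % 4).toNat : ℕ) • g) + n • g
      have e : n = 4 * (n / 4) + n % 4 := (Int.mul_ediv_add_emod n 4).symm
      have e2 : ((n % 4).toNat : ℤ) = n % 4 := Int.toNat_of_nonneg (by omega)
      rw [← natCast_zsmul g (n % 4).toNat, e2]
      generalize n / 4 = q at e ⊢
      generalize n % 4 = r at e ⊢
      subst e
      module
    have := Nat.card_le_card_of_surjective _ hsurj
    simpa using this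
  have h1 : (P2 D).relIndex H ≤ 4 := by
    refine (relIndex_le_of_fun (P2 D) H (X := V ⧸ (Dbl 4 : AddSubgroup V))
      (fun x => QuotientAddGroup.mk (D.ρ x g)) ?_).trans hcard4
    intro x _ y _ hf
    obtain ⟨w, hw⟩ := QuotientAddGroup.eq.1 hf
    have hw' : (4 : ℕ) • w = - D.ρ x g + D.ρ y g := hw
    refine mem_P2.2 (fun v => ?_)
    obtain ⟨n, rfl⟩ := hgen v
    refine ⟨n • D.ρ x⁻¹ w, ?_⟩
    rw [δ_zsmul]
    have e : D.δ (x⁻¹ * y) g = D.ρ x⁻¹ ((4 : ℕ) • w) := by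
      rw [hw', map_add, map_neg, D.ρ_inv_ρ, δ_def, D.ρ_mul]
      abel
    rw [e, map_nsmul, smul_comm]
  have h2 := chain hM (H ⊓ P2 D) K inf_le_right (fun x hx => hs x hx.1)
  have h3 : K.relIndex ((H ⊓ P2 D) ⊓ Ann D 0) ≤ 2 := by
    rw [L0_eq]
    have h5 := card_eq_relIndex_mul_inf K (D.B ⊓ H)
    have h6 : K ⊓ (D.B ⊓ H) = D.B ⊓ K := by
      ext x
      constructor
      · intro h
        exact ⟨h.2.1, h.1⟩
      · intro h
        exact ⟨h.2, h.1, hKH h.2⟩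
    rw [h6, ← card_pull D H, ← card_pull D K] at h5
    have h7 := card_le_of_double (V := V) (B₀ := pull D H) (K₀ := pull D K) (by
      intro v hv
      have h8 := hs _ hv
      change D.ι ((2 : ℕ) • v) ∈ K
      rw [two_nsmul, D.ι_add]
      exact h8)
    rw [h5] at h7
    exact Nat.le_of_mul_le_mul_right (h7.trans (Nat.mul_le_mul_right _ hW)) Nat.card_pos
  have h4 : ((H ⊓ P2 D) ⊓ Ann D 0).relIndex ((H ⊓ P2 D) ⊓ Ann D 1) ≤ 2 := by
    refine le_trans ?_ hW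
    apply relIndex_le_of_fun _ _ (X := (Tor 2 : AddSubgroup V)) (fun x => if hx : x ∈ (H ⊓ P2 D) ⊓ Ann D 1 then
      ⟨D.δ x g, by
        have := mem_Ann.1 hx.2 g
        exact (by simpa using this : (2 : ℕ) • D.δ x g = 0)⟩ else 0)
    intro x hx y hy hf
    simp only [hx, hy, dif_pos] at hf
    have h5 : D.δ x g = D.δ y g := congrArg Subtype.val hf
    refine ⟨(H ⊓ P2 D).mul_mem ((H ⊓ P2 D).inv_mem hx.1) hy.1, B_le_Ann 0 ?_⟩
    rw [D.mem_B_iff]
    intro v
    obtain ⟨n, rfl⟩ := hgen v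
    rw [map_zsmul]
    congr 1
    have h6 : D.ρ y g = D.ρ x g := by
      rw [D.ρ_eq, D.ρ_eq, h5]
    rw [D.ρ_mul, h6, D.ρ_inv_ρ]
  have h5 := card_eq_relIndex_mul_inf (P2 D) H
  rw [inf_comm] at h5
  have h6 := card_eq_relIndex_mul_inf K (H ⊓ P2 D)
  have h7 : Nat.card (K ⊓ (H ⊓ P2 D) : Subgroup S) ≤ Nat.card K := Subgroup.card_le_of_le inf_le_left
  have h8 : K.relIndex (H ⊓ P2 D) ≤ 2 * 2 := h2.trans (Nat.mul_le_mul h3 h4)
  rw [h5, h6]
  calc (P2 D).relIndex H * (K.relIndex (H ⊓ P2 D) * Nat.card (K ⊓ (H ⊓ P2 D) : Subgroup S))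
      ≤ 4 * ((2 * 2) * Nat.card K) := Nat.mul_le_mul h1 (Nat.mul_le_mul h8 h7)
    _ = 2 ^ 4 * Nat.card K := by ring

/-- Reduction to a maximal normal abelian subgroup. -/
theorem main_step (hS : IsPGroup 2 S) (hE8 : NoE8 S) (N : Subgroup S) (hNn : N.Normal)
    (hNc : ∀ x ∈ N, ∀ y ∈ N, x * y = y * x)
    (hZ : (∃ W : Subgroup S, W ≤ N ∧ Nat.card W = 4 ∧ (∀ w ∈ W, w * w = 1) ∧ ∀ w ∈ W, ∃ u ∈ N, u * u = w) ∨ NoZ44 S) :
    SecBd 4 S := by
  classical
  haveI : Fact (Nat.Prime 2) := ⟨Nat.prime_two⟩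
  let PP : Subgroup S → Prop := fun B => B.Normal ∧ ∀ x ∈ B, ∀ y ∈ B, x * y = y * x
  obtain ⟨B, hNB, hBmax⟩ := Finite.exists_le_maximal (p := PP) (a := N) ⟨hNn, hNc⟩
  obtain ⟨hBn, hBc⟩ := hBmax.prop
  have hCB : Subgroup.centralizer (B : Set S) = B := by
    haveI := hBn
    apply Cfsg.Agent.Lib.PGroups.MaxAbelian.centralizer_eq_of_maximal hS B ⟨⟨fun x y => Subtype.ext (hBc x x.2 y y.2)⟩⟩
    intro B' hB'n hB'c hle
    refine le_antisymm (hBmax.2 ⟨hB'n, ?_⟩ hle) hle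
    intro x hx y hy
    exact congrArg Subtype.val (hB'c.is_comm.comm ⟨x, hx⟩ ⟨y, hy⟩)
  have hcent : ∀ x, (∀ b ∈ B, x * b = b * x) → x ∈ B := by
    intro x hx
    rw [← SetLike.mem_coe, ← hCB, SetLike.mem_coe, Subgroup.mem_centralizer_iff]
    intro b hb
    exact (hx b hb).symm
  letI := Cfsg.Agent.Lib.SelfCentE8.R2.commOf B hBc
  let D := Cfsg.Agent.Lib.SelfCentE8.R2.modOf B hBn hBc hcent
  haveI : Finite (Additive B) := Finite.of_injective D.ι D.ι_inj
  have hΩn : (Bsub D (Tor 2)).Normal := by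
    constructor
    rintro _ ⟨t, ht, rfl⟩ g
    exact ⟨D.ρ g t, D.inv_Tor 2 g t ht, D.conj g t⟩
  have hΩel : ∀ x ∈ Bsub D (Tor 2), x * x = 1 := by
    rintro _ ⟨t, ht, rfl⟩
    rw [← D.ι_add, ← two_nsmul, show (2 : ℕ) • t = 0 from ht, D.ι_zero]
  have h4 := hE8 _ hΩn hΩel
  rw [card_Bsub] at h4
  by_cases hcard : Nat.card (Tor 2 : AddSubgroup (Additive B)) = 4
  · obtain ⟨M, hM⟩ := exists_exp D hS
    have hne : ∃ e : Additive B, (2 : ℕ) • e = 0 ∧ e ≠ 0 := by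
      by_contra h
      push Not at h
      have h1 : (Tor 2 : AddSubgroup (Additive B)) = ⊥ := by
        rw [eq_bot_iff]
        intro w hw
        exact h w hw
      rw [h1, AddSubgroup.card_bot] at hcard
      omega
    obtain ⟨k, L⟩ := exists_lev hM hne
    by_cases hk : 1 ≤ k
    · refine secBd_level (D := D) ⟨hS, hcard, fun w hw => ?_, hE8⟩
      obtain ⟨j, rfl⟩ : ∃ j, k = j + 1 := ⟨k - 1, by omega⟩
      obtain ⟨u, hu⟩ := L.le w hw
      have hu' : (2 ^ (j + 1) : ℕ) • u = w := hu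
      refine ⟨(2 ^ j : ℕ) • u, ?_⟩
      change (2 : ℕ) • (2 ^ j : ℕ) • u = w
      rw [← hu', ← mul_nsmul', pow_succ']
    · obtain rfl : k = 0 := by omega
      rcases hZ with ⟨W, hWN, hW4, hWel, hsq⟩ | hZ
      · exfalso
        have hWΩ : W ≤ Bsub D (Tor 2) := by
          intro w hw
          have hwB : w ∈ B := hNB (hWN hw)
          refine ⟨Additive.ofMul ⟨w, hwB⟩, ?_, rfl⟩
          change (2 : ℕ) • Additive.ofMul (⟨w, hwB⟩ : B) = 0
          apply D.ι_eq_one.1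
          rw [two_nsmul, D.ι_add]
          exact hWel w hw
        have hΩ4 : Nat.card (Bsub D (Tor 2)) = 4 := by
          rw [card_Bsub]
          exact hcard
        have hΩW : Bsub D (Tor 2) = W := (Subgroup.eq_of_le_of_card_ge hWΩ (by omega)).symm
        obtain ⟨e, he2, he⟩ := L.ex
        have h1 : D.ι e ∈ W := by
          rw [← hΩW]
          exact ⟨e, he2, rfl⟩
        obtain ⟨u, huN, hu⟩ := hsq _ h1
        apply he
        refine ⟨Additive.ofMul ⟨u, hNB huN⟩, ?_⟩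
        change (2 ^ (0 + 1) : ℕ) • Additive.ofMul (⟨u, hNB huN⟩ : B) = e
        apply D.ι_inj
        rw [← hu]
        simp only [zero_add, pow_one]
        rw [two_nsmul, D.ι_add]
        rfl
      · exact secBd_N1 D hS hcard L hE8 hZ
  · have hcard2 : Nat.card (Tor 2 : AddSubgroup (Additive B)) ≤ 2 := by
      have hp : IsPGroup 2 (Multiplicative (Tor 2 : AddSubgroup (Additive B))) := by
        intro g
        refine ⟨1, ?_⟩
        apply Multiplicative.toAdd.injective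
        apply Subtype.ext
        exact g.toAdd.2
      obtain ⟨n, hn⟩ := IsPGroup.iff_card.1 hp
      have hn' : Nat.card (Tor 2 : AddSubgroup (Additive B)) = 2 ^ n := by
        rw [← hn]
        exact Nat.card_congr Multiplicative.ofAdd
      rw [hn'] at h4 hcard ⊢
      have hn2 : n < 3 := by
        by_contra h
        have : 2 ^ 3 ≤ 2 ^ n := Nat.pow_le_pow_right (by norm_num) (by omega)
        omega
      interval_cases n <;> omega
    exact secBd_cyclic hS D hcard2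

/-- **MacWilliams' theorem.** -/
theorem main (hS : IsPGroup 2 S) (hE8 : NoE8 S) : SecBd 4 S := by
  by_cases hZ : NoZ44 S
  · exact main_step hS hE8 ⊥ inferInstance (fun x hx y hy => by
      rw [Subgroup.mem_bot] at hx hy
      rw [hx, hy]) (Or.inr hZ)
  · unfold NoZ44 at hZ
    push Not at hZ
    obtain ⟨N, hNn, hNc, W, hWN, hW4, hWel, hsq⟩ := hZ
    exact main_step hS hE8 N hNn hNc (Or.inl ⟨W, hWN, hW4, hWel, hsq⟩)

end Cfsg.Agent.Lib.MacW.Main
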