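import Cfsg.Agent.Lib.MacW.Chain

/-!
# Squares in `T`, and what the absence of a normal `E₈` says about them
-/

set_option autoImplicit false
set_option linter.unusedSectionVars false

namespace Cfsg.Agent.Lib.MacW.Sigma

open Cfsg.Agent.Lib.TwoFusion.SecRank Cfsg.Agent.Lib.SelfCentE8.Setup Cfsg.Agent.Lib.SelfCentE8.Count
open Cfsg.Agent.Lib.SelfCentE8.TCore Cfsg.Agent.Lib.SelfCentE8.TCount Cfsg.Agent.Lib.SelfCentE8.Gamma
open Cfsg.Agent.Lib.SelfCentE8.N1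
open Cfsg.Agent.Lib.MacW.Basic Cfsg.Agent.Lib.MacW.Chain
open Mod

variable {S V : Type*} [Group S] [AddCommGroup V] {D : Mod S V}

/-- The standing hypotheses. -/
structure Ctx (D : Mod S V) : Prop where
  hS : IsPGroup 2 S
  hW : Nat.card (Tor 2 : AddSubgroup V) = 4
  hV2 : ∀ w : V, (2 : ℕ) • w = 0 → w ∈ (Dbl 2 : AddSubgroup V)
  hE8 : NoE8 S

section rel

/-- `y` commutes with its square. -/
lemma R1 {y : S} {b : V} (hb : y * y = D.ι b) : D.δ y b = 0 := by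
  rw [δ_def, sub_eq_zero]
  apply D.ι_inj
  rw [← D.conj, ← hb]
  group

/-- The commutator relation. -/
lemma R2 {y y' : S} {b' c : V} (hc : y * y' * y⁻¹ * y'⁻¹ = D.ι c) (hb' : y' * y' = D.ι b') :
    D.δ y b' = (2 : ℕ) • c + D.δ y' c := by
  have h1 : y * y' * y⁻¹ = D.ι c * y' := by
    rw [← hc]
    group
  have h2 : D.ι (D.ρ y b') = D.ι (c + D.ρ y' c + b') := by
    rw [← D.conj, D.ι_add, D.ι_add, ← D.conj, ← hb']
    calc y * (y' * y') * y⁻¹ = (y * y' * y⁻¹) * (y * y' * y⁻¹) := by group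
      _ = (D.ι c * y') * (D.ι c * y') := by rw [h1]
      _ = _ := by group
  have h3 := D.ι_inj h2
  rw [δ_def, h3, D.ρ_eq y' c, two_nsmul]
  abel

/-- The square of a product. -/
lemma sq_mul {y y' : S} {b b' c : V} (hc : y * y' * y⁻¹ * y'⁻¹ = D.ι c) (hb : y * y = D.ι b)
    (hb' : y' * y' = D.ι b') : (y * y') * (y * y') = D.ι (b + b' - D.ρ y c) := by
  have h1 : y' * y = D.ι (-c) * (y * y') := by
    rw [D.ι_neg, ← hc]
    group
  rw [sub_eq_neg_add, D.ι_add, D.ι_add, D.ι_neg, ← D.conj, ← hb, ← hb', ← hc]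
  group

lemma inv_sq {y : S} {b : V} (hb : y * y = D.ι b) : y⁻¹ * y⁻¹ = D.ι (-b) := by
  rw [D.ι_neg, ← hb]
  group

lemma conj_sq (g : S) {y : S} {b : V} (hb : y * y = D.ι b) : (g * y * g⁻¹) * (g * y * g⁻¹) = D.ι (D.ρ g b) := by
  rw [← D.conj, ← hb]
  group

lemma comm_inv {y y' : S} {c : V} (hc : y * y' * y⁻¹ * y'⁻¹ = D.ι c) : y' * y * y'⁻¹ * y⁻¹ = D.ι (-c) := by
  rw [D.ι_neg, ← hc]
  group

end rel

section hV2

variable [Finite V] (hV2 : ∀ w : V, (2 : ℕ) • w = 0 → w ∈ (Dbl 2 : AddSubgroup V))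
include hV2

lemma T_δ_δ {y y' : S} (hy : y ∈ T D) (hy' : y' ∈ T D) (v : V) : D.δ y (D.δ y' v) = 0 :=
  T_kills_Dbl hV2 hy (hV2 _ (mem_T.1 hy' v))

lemma T_sq {y : S} (hy : y ∈ T D) : ∃ b, y * y = D.ι b := by
  apply (D.cent (y * y) _).imp
  · intro b hb
    exact hb
  intro v
  have h := δ_sq (D := D) y v
  rw [mem_T.1 hy v, T_δ_δ hV2 hy hy v, add_zero, δ_def, sub_eq_zero] at h
  exact h

lemma T_comm {y y' : S} (hy : y ∈ T D) (hy' : y' ∈ T D) : ∃ c, y * y' * y⁻¹ * y'⁻¹ = D.ι c := by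
  apply (D.cent _ _).imp
  · intro b hb
    exact hb
  intro v
  obtain ⟨w, hw⟩ := exists_ρ_inv (D := D) y y' v
  have h := δ_comm hw
  rw [T_δ_δ hV2 hy hy' w, T_δ_δ hV2 hy' hy w, sub_self, δ_def, sub_eq_zero] at h
  exact h

lemma mkQ_neg (v : V) : mkQ (-v) = mkQ v := by
  have h := Q_two (mkQ v)
  have e : mkQ (-v) = - mkQ v := rfl
  rw [e]
  exact neg_eq_of_add_eq_zero_left h

lemma mkQ_sub (u v : V) : mkQ (u - v) = mkQ u + mkQ v := by
  rw [sub_eq_add_neg, mkQ_add, mkQ_neg hV2]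

lemma Q_eq_of_add {p q : Q V} (h : p + q = 0) : p = q := by
  have h2 := Q_two q
  exact add_right_cancel (h.trans h2.symm)

/-- `R1` on `Q`. -/
lemma R1Q {y : S} (hy : y ∈ T D) {b : V} (hb : y * y = D.ι b) : NN D y (mkQ b) = 0 := by
  have h0 : (2 : ℕ) • (0 : V) = D.δ y b := by rw [R1 hb, smul_zero]
  exact NN_spec hV2 (T_le_S1 hV2 hy) h0

/-- `R2` on `Q`. -/
lemma R2Q {y y' : S} (hy : y ∈ T D) (hy' : y' ∈ T D) {b' c : V} (hc : y * y' * y⁻¹ * y'⁻¹ = D.ι c)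
    (hb' : y' * y' = D.ι b') : mkQ c + NN D y' (mkQ c) = NN D y (mkQ b') := by
  obtain ⟨u, hu⟩ := mem_S1.1 (T_le_S1 hV2 hy') c
  obtain ⟨u', hu'⟩ := mem_S1.1 (T_le_S1 hV2 hy) b'
  rw [NN_spec hV2 (T_le_S1 hV2 hy') hu, NN_spec hV2 (T_le_S1 hV2 hy) hu', ← mkQ_add]
  apply mkQ_eq_of_two hV2
  rw [hu', R2 hc hb', nsmul_add, hu]

/-- The composition law on `Q`. -/
lemma sq_mulQ {y : S} (hy : y ∈ T D) {b b' c : V} :
    mkQ (b + b' - D.ρ y c) = mkQ b + mkQ b' + mkQ c := by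
  have h := hV2 _ (mem_T.1 hy c)
  rw [D.ρ_eq y c, mkQ_sub hV2, mkQ_add, mkQ_add, mkQ_eq_zero.2 h, add_zero]

/-- The normal subgroup `W = T ∩ P₂`. -/
def W (D : Mod S V) : Subgroup S := T D ⊓ P2 D

omit hV2 in
instance W_normal : (W D).Normal := by
  unfold W
  infer_instance

omit hV2 in
omit [Finite V] in
lemma B_le_W : D.B ≤ W D := le_inf B_le_T B_le_P2

lemma NN_W {w : S} (hw : w ∈ W D) : NN D w = 0 :=
  (NN_eq_zero_iff hV2 (T_le_S1 hV2 hw.1)).2 hw.2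

/-- Commutators with `W` vanish on `Q`. -/
lemma comm_W {w y : S} (hw : w ∈ W D) (hy : y ∈ T D) (hN : ∀ q, NN D y q = q → q = 0) {c : V}
    (hc : y * w * y⁻¹ * w⁻¹ = D.ι c) : mkQ c = 0 := by
  obtain ⟨b, hb⟩ := T_sq hV2 hy
  have h1 := R2Q hV2 hw.1 hy (comm_inv hc) hb
  rw [NN_W hV2 hw, AddMonoidHom.zero_apply, mkQ_neg hV2] at h1
  have h2 : NN D y (mkQ c) = mkQ c := (Q_eq_of_add hV2 h1).symm
  exact hN _ h2

end hV2

section fixed

variable [Finite V] (C : Ctx D)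
include C

/-- The map `2 + δ`. -/
noncomputable def twoδ (D : Mod S V) (y : S) : V →+ V :=
  (nsmulAddMonoidHom 2 : V →+ V) + (D.ρ y - AddMonoidHom.id V)

omit C in
lemma twoδ_apply (y : S) (v : V) : twoδ D y v = (2 : ℕ) • v + D.δ y v := rfl

lemma twoδ_ker {y : S} (hy : y ∈ T D) (hN : ∀ q, NN D y q = q → q = 0) {b : V} (hb : twoδ D y b = 0) :
    (2 : ℕ) • b = 0 := by
  obtain ⟨u, hu⟩ := mem_S1.1 (T_le_S1 C.hV2 hy) b
  have h1 := NN_spec C.hV2 (T_le_S1 C.hV2 hy) hu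
  have hb1 := hb
  rw [twoδ_apply, ← hu, ← nsmul_add] at hb1
  have h2 := C.hV2 _ hb1
  rw [← mkQ_eq_zero, mkQ_add] at h2
  have h3 : mkQ u = mkQ b := (Q_eq_of_add C.hV2 h2).symm
  rw [h3] at h1
  have h4 := mkQ_eq_zero.1 (hN _ h1)
  rw [twoδ_apply, T_kills_Dbl C.hV2 hy h4, add_zero] at hb
  exact hb

lemma twoδ_range {y : S} (hy : y ∈ T D) (hN : ∀ q, NN D y q = q → q = 0) :
    (twoδ D y).range = (Dbl 2 : AddSubgroup V) := by
  have hk : (twoδ D y).ker = (Tor 2 : AddSubgroup V) := by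
    ext v
    rw [AddMonoidHom.mem_ker]
    constructor
    · exact fun h => twoδ_ker C hy hN h
    · intro h
      have h' : (2 : ℕ) • v = 0 := h
      rw [twoδ_apply, h', T_kills_Dbl C.hV2 hy (C.hV2 v h'), add_zero]
  have hr : (twoδ D y).range ≤ (Dbl 2 : AddSubgroup V) := by
    rintro _ ⟨v, rfl⟩
    rw [twoδ_apply]
    exact (Dbl 2).add_mem ⟨v, rfl⟩ (C.hV2 _ (mem_T.1 hy v))
  have h1 : Nat.card (twoδ D y).ker * Nat.card (twoδ D y).range = Nat.card V := by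
    rw [← AddSubgroup.index_ker]
    exact AddSubgroup.card_mul_index _
  have h2 := card_Tor_mul_Dbl (V := V)
  rw [hk, C.hW] at h1
  rw [C.hW] at h2
  have h3 : Nat.card (twoδ D y).range = Nat.card (Dbl 2 : AddSubgroup V) := by omega
  exact AddSubgroup.eq_of_le_of_card_ge hr (le_of_eq h3.symm)

/-- The basic obstruction: no `S`-fixed coset of `B` in `T` can square into `2V`, when `2 + δ` has
the smallest possible kernel. -/
lemma no_fixed [Finite S] {y : S} (hy : y ∈ T D) (hyB : y ∉ D.B) (hfix : ∀ g, y⁻¹ * (g * y * g⁻¹) ∈ D.B)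
    (hN : ∀ q, NN D y q = q → q = 0) {b : V} (hb : y * y = D.ι b) (hb2 : b ∈ (Dbl 2 : AddSubgroup V)) :
    False := by
  have hneg : -b ∈ (twoδ D y).range := by
    rw [twoδ_range C hy hN]
    exact (Dbl 2).neg_mem hb2
  obtain ⟨b', hb'⟩ := hneg
  rw [twoδ_apply] at hb'
  have hu2 : (y * D.ι b') * (y * D.ι b') = D.ι 0 := by
    calc (y * D.ι b') * (y * D.ι b') = (y * D.ι b' * y⁻¹) * (y * y) * D.ι b' := by group
      _ = D.ι (D.ρ y b') * D.ι b * D.ι b' := by rw [D.conj, hb]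
      _ = D.ι (D.ρ y b' + b + b') := by rw [D.ι_add, D.ι_add]
      _ = D.ι 0 := by
        congr 1
        have e : D.ρ y b' + b + b' = ((2 : ℕ) • b' + D.δ y b') + b := by
          rw [D.ρ_eq y b', two_nsmul]
          abel
        rw [e, hb']
        abel
  set u := y * D.ι b' with hu
  have hρu : ∀ v, D.ρ u v = D.ρ y v := by
    intro v
    rw [hu, D.ρ_mul, D.ρ_ι]
  have hcT : ∀ t ∈ (Tor 2 : AddSubgroup V), D.ρ u t = t := by
    intro t ht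
    rw [hρu, D.ρ_eq y t, T_kills_Dbl C.hV2 hy (C.hV2 t ht), add_zero]
  have hg : ∀ g, ∃ r ∈ (Tor 2 : AddSubgroup V), g * u * g⁻¹ = D.ι r * u := by
    intro g
    obtain ⟨e₁, he₁⟩ := D.mem_B.1 (hfix g)
    have h1 : g * y * g⁻¹ = y * D.ι e₁ := by
      rw [← he₁]
      group
    let e := -b' + e₁ + D.ρ g b'
    have h2 : g * u * g⁻¹ = u * D.ι e := by
      calc g * u * g⁻¹ = (g * y * g⁻¹) * (g * D.ι b' * g⁻¹) := by rw [hu]; group
        _ = y * D.ι e₁ * D.ι (D.ρ g b') := by rw [h1, D.conj]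
        _ = u * D.ι e := by
          simp only [e, hu, D.ι_add, D.ι_neg]
          group
    have h3 : (u * D.ι e) * (u * D.ι e) = 1 := by
      rw [← h2]
      calc g * u * g⁻¹ * (g * u * g⁻¹) = g * (u * u) * g⁻¹ := by group
        _ = 1 := by rw [hu2, D.ι_zero]; group
    have h4 : D.ρ u e + e = 0 := by
      have h5 : (u * D.ι e) * (u * D.ι e) = (u * D.ι e * u⁻¹) * (u * u) * D.ι e := by group
      rw [h3, D.conj, hu2, D.ι_zero, mul_one, ← D.ι_add] at h5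
      exact D.ι_eq_one.1 h5.symm
    have h6 : twoδ D y e = 0 := by
      rw [twoδ_apply, two_nsmul]
      rw [hρu, D.ρ_eq y e] at h4
      rw [← h4]
      abel
    have he2 : e ∈ (Tor 2 : AddSubgroup V) := twoδ_ker C hy hN h6
    refine ⟨e, he2, ?_⟩
    rw [h2]
    exact comm_of_fix (hcT e he2)
  have hE0 : (0 : V) ∈ (Tor 2 : AddSubgroup V) := AddSubgroup.zero_mem _
  have hEn := Ext_normal hE0 hu2 hcT (D.inv_Tor 2) hg
  have hEel : ∀ x ∈ Ext D u (Tor 2) hE0 hu2 hcT, x * x = 1 := by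
    rintro _ ⟨t, ht, rfl | rfl⟩
    · rw [← D.ι_add, ← two_nsmul, show (2 : ℕ) • t = 0 from ht, D.ι_zero]
    · have h1 : (u * D.ι t) * (u * D.ι t) = u * (D.ι t * u) * D.ι t := by group
      rw [h1, ← comm_of_fix (hcT t ht)]
      have h2 : u * (u * D.ι t) * D.ι t = (u * u) * (D.ι t * D.ι t) := by group
      rw [h2, hu2, ← D.ι_add, ← two_nsmul, show (2 : ℕ) • t = 0 from ht, D.ι_zero, mul_one]
  have hle := C.hE8 _ hEn hEel
  have hlt : Bsub D (Tor 2) < Ext D u (Tor 2) hE0 hu2 hcT := by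
    refine lt_of_le_of_ne (Bsub_le_Ext hE0 hu2 hcT) (fun h => ?_)
    have h1 : u ∈ Bsub D (Tor 2) := by
      rw [h]
      exact mem_Ext_self hE0 hu2 hcT
    obtain ⟨t, _, ht⟩ := h1
    apply hyB
    have h2 : y = D.ι (t - b') := by
      rw [D.ι_sub, ← ht, hu]
      group
    rw [h2]
    exact D.ι_mem _
  have h1 := Cfsg.Agent.Lib.PGroups.Basic.card_lt_of_lt hlt
  rw [card_Bsub, C.hW] at h1
  omega

lemma hN_W {w : S} (hw : w ∈ W D) (q : Q V) (h : NN D w q = q) : q = 0 := by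
  rw [NN_W C.hV2 hw, AddMonoidHom.zero_apply] at h
  exact h.symm

/-- The elements of `W` that square into `2V`. -/
def ZZ (C : Ctx D) : Subgroup S where
  carrier := {w | w ∈ W D ∧ ∃ b ∈ (Dbl 2 : AddSubgroup V), w * w = D.ι b}
  mul_mem' := by
    rintro w w' ⟨hw, b, hb2, hb⟩ ⟨hw', b', hb2', hb'⟩
    refine ⟨(W D).mul_mem hw hw', ?_⟩
    obtain ⟨c, hc⟩ := T_comm C.hV2 hw.1 hw'.1
    have hc0 := mkQ_eq_zero.1 (comm_W C.hV2 hw' hw.1 (hN_W C hw) hc)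
    exact ⟨_, (Dbl 2).sub_mem ((Dbl 2).add_mem hb2 hb2') (D.inv_Dbl 2 _ _ hc0), sq_mul hc hb hb'⟩
  one_mem' := ⟨(W D).one_mem, 0, (Dbl 2).zero_mem, by simp⟩
  inv_mem' := by
    rintro w ⟨hw, b, hb2, hb⟩
    exact ⟨(W D).inv_mem hw, -b, (Dbl 2).neg_mem hb2, inv_sq hb⟩

lemma ZZ_normal : (ZZ C).Normal := by
  constructor
  rintro w ⟨hw, b, hb2, hb⟩ g
  exact ⟨(inferInstance : (W D).Normal).conj_mem w hw g, _, D.inv_Dbl 2 g b hb2, conj_sq g hb⟩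

lemma B_le_ZZ : D.B ≤ ZZ C := by
  rintro _ ⟨v, rfl⟩
  exact ⟨B_le_W (D.ι_mem v), (2 : ℕ) • v, ⟨v, rfl⟩, by rw [D.ι_nsmul, pow_two]⟩

/-- `σ` has trivial kernel on `W / B`. -/
theorem mem_B_of_W [Finite S] {w : S} (hw : w ∈ W D) {b : V} (hb : w * w = D.ι b)
    (hb2 : b ∈ (Dbl 2 : AddSubgroup V)) : w ∈ D.B := by
  classical
  by_contra hwB
  haveI : Fact (Nat.Prime 2) := ⟨Nat.prime_two⟩
  haveI := ZZ_normal C
  have hlt : D.B < ZZ C := lt_of_le_of_ne (B_le_ZZ C) (fun h => hwB (h ▸ (⟨hw, b, hb2, hb⟩ : w ∈ ZZ C)))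
  obtain ⟨y, hy, hyB, hfix⟩ := Cfsg.Agent.Lib.Involutions2.NormalFour.exists_mem_comm_mem C.hS D.B (ZZ C) hlt
  obtain ⟨hyW, b₁, hb₁2, hb₁⟩ := hy
  refine no_fixed C hyW.1 hyB ?_ (hN_W C hyW) hb₁ hb₁2
  intro g
  have h1 := (inferInstance : D.B.Normal).conj_mem _ (hfix g) y⁻¹
  have e : y⁻¹ * (g * y * g⁻¹ * y⁻¹) * y⁻¹⁻¹ = y⁻¹ * (g * y * g⁻¹) := by group
  rwa [e] at h1

/-- `σ` separates the cosets of `B` in `W`. -/
theorem W_inj [Finite S] {w w' : S} (hw : w ∈ W D) (hw' : w' ∈ W D) {b b' : V} (hb : w * w = D.ι b)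
    (hb' : w' * w' = D.ι b') (hbb : mkQ b = mkQ b') : w⁻¹ * w' ∈ D.B := by
  have hwi := (W D).inv_mem hw
  obtain ⟨c, hc⟩ := T_comm C.hV2 hwi.1 hw'.1
  have hc0 := mkQ_eq_zero.1 (comm_W C.hV2 hw' hwi.1 (hN_W C hwi) hc)
  refine mem_B_of_W C ((W D).mul_mem hwi hw') (sq_mul hc (inv_sq hb) hb') ?_
  refine (Dbl 2).sub_mem ?_ (D.inv_Dbl 2 _ _ hc0)
  have h1 := mkQ_eq.1 hbb
  have e : -b + b' = -(b - b') := by abel
  rw [e]
  exact (Dbl 2).neg_mem h1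

/-- The general form: `σ t` is not in `σ W` when `N t` is nonzero, `S`-invariant and `1 + N t` is
injective. -/
theorem sigma_ne [Finite S] {t : S} (ht : t ∈ T D) (hN : ∀ q, NN D t q = q → q = 0) (hN0 : NN D t ≠ 0)
    (hinv : ∀ g, NN D (g * t * g⁻¹) = NN D t) {b : V} (hb : t * t = D.ι b) {w : S} (hw : w ∈ W D) {b' : V}
    (hb' : w * w = D.ι b') : mkQ b ≠ mkQ b' := by
  intro hbb
  have hV2 := C.hV2
  have hyT : t * w ∈ T D := (T D).mul_mem ht hw.1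
  have hS1t := T_le_S1 hV2 ht
  have hNy : NN D (t * w) = NN D t := by
    rw [NN_mul hV2 hS1t (T_le_S1 hV2 hw.1), NN_W hV2 hw, add_zero]
  obtain ⟨c, hc⟩ := T_comm hV2 ht hw.1
  have hc0 := comm_W hV2 hw ht hN hc
  have hsq := sq_mul hc hb hb'
  have hy2 : mkQ (b + b' - D.ρ t c) = 0 := by
    rw [sq_mulQ hV2 ht, hc0, add_zero, hbb]
    exact Q_two _
  have hN' : ∀ q, NN D (t * w) q = q → q = 0 := by
    rw [hNy]
    exact hN
  refine no_fixed C hyT ?_ ?_ hN' hsq (mkQ_eq_zero.1 hy2)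
  · intro hB
    apply hN0
    rw [← hNy]
    exact (NN_eq_zero_iff hV2 (T_le_S1 hV2 hyT)).2 (B_le_P2 hB)
  · intro g
    set y := t * w with hy
    have hgy : g * y * g⁻¹ ∈ T D := (inferInstance : (T D).Normal).conj_mem y hyT g
    have hS1y := T_le_S1 hV2 hyT
    have hS1gy := T_le_S1 hV2 hgy
    have hNg : NN D y = NN D (g * y * g⁻¹) := by
      have e : g * y * g⁻¹ = (g * t * g⁻¹) * (g * w * g⁻¹) := by
        rw [hy]
        group
      have hgt : g * t * g⁻¹ ∈ S1 D := (inferInstance : (S1 D).Normal).conj_mem t hS1t g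
      have hgw : g * w * g⁻¹ ∈ W D := (inferInstance : (W D).Normal).conj_mem w hw g
      rw [e, NN_mul hV2 hgt (T_le_S1 hV2 hgw.1), hinv, NN_W hV2 hgw, add_zero, hNy]
    have hw₁ : y⁻¹ * (g * y * g⁻¹) ∈ W D :=
      ⟨(T D).mul_mem ((T D).inv_mem hyT) hgy, (NN_eq_iff hV2 hS1y hS1gy).1 hNg⟩
    set w₁ := y⁻¹ * (g * y * g⁻¹) with hw₁def
    obtain ⟨b₁, hb₁⟩ := T_sq hV2 hw₁.1
    refine mem_B_of_W C hw₁ hb₁ ?_
    -- the square of `y * w₁`
    obtain ⟨c₁, hc₁⟩ := T_comm hV2 hyT hw₁.1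
    have hc₁0 := comm_W hV2 hw₁ hyT hN' hc₁
    have hs := sq_mul hc₁ hsq hb₁
    have e1 : y * w₁ = g * y * g⁻¹ := by
      rw [hw₁def]
      group
    rw [e1, conj_sq g hsq] at hs
    have h2 := D.ι_inj hs
    have h3 := congrArg mkQ h2
    rw [sq_mulQ hV2 hyT, hc₁0, add_zero] at h3
    have h4 : mkQ (D.ρ g (b + b' - D.ρ t c)) = 0 :=
      mkQ_eq_zero.2 (D.inv_Dbl 2 g _ (mkQ_eq_zero.1 hy2))
    rw [h4, hy2, zero_add] at h3
    exact mkQ_eq_zero.1 h3.symm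

end fixed

end Cfsg.Agent.Lib.MacW.Sigma
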